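import Cfsg.Agent.RankTwoClass.Basic
import Cfsg.Agent.RankTwoClass.AbelianPowerIndex
import Cfsg.Agent.Constrained.Fitting
import Cfsg.Agent.LocalP.Basic
import Cfsg.Agent.TwoRegular.Local
import Cfsg.Agent.Eq.Def_Solvable
import Mathlib

/-!
Class sizes `1`, `m`, `m * n` where a `p`-element has class size `m = p ^ e`: its centraliser is an abelian
normal subgroup.
-/

set_option autoImplicit false

namespace CfsgLib.RankTwoClass

open CfsgLib.TwoSizes (cen mem_cen IsPElt cen_mul_le center_le_cen cen_eq_top le_of_forall_pElt)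
open CfsgLib.CoprimeLargest (idx idx_ne_zero idx_eq_one_iff idx_conj cen_central_mul idx_dvd_of_le
  cen_eq_of_le_of_idx coprime_orderOf_of_pElt exists_prime_pElt_not_central factorization_le_center
  factorization_center_lt)

variable {G : Type*} [Group G] [Finite G]

/-- An element of prime power order is conjugate into any subgroup with the full Sylow order. -/
theorem exists_conj_sylow_le {r : ℕ} [hr : Fact r.Prime] {Q K : Subgroup G} (hQ : IsPGroup r Q)
    (hK : (Nat.card K).factorization r = (Nat.card G).factorization r) :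
    ∃ g : G, ∀ v ∈ Q, g * v * g⁻¹ ∈ K := by
  obtain ⟨T⟩ : Nonempty (Sylow r K) := inferInstance
  obtain ⟨S, hS⟩ := (T.2.map K.subtype).exists_le_sylow
  have hTS := Subgroup.eq_of_le_of_card_ge hS (le_of_eq (by
    rw [Subgroup.card_map_of_injective K.subtype_injective, S.card_eq_multiplicity, T.card_eq_multiplicity, hK]))
  obtain ⟨S', hS'⟩ := hQ.exists_le_sylow
  obtain ⟨g, hg⟩ := MulAction.exists_smul_eq G S' S
  refine ⟨g, fun v hv => ?_⟩
  have h : g * v * g⁻¹ ∈ (S : Subgroup G) := by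
    rw [← hg, Sylow.coe_subgroup_smul, Subgroup.mem_pointwise_smul_iff_inv_smul_mem]
    simpa [mul_assoc] using hS' hv
  rw [← hTS] at h
  obtain ⟨w, -, hw⟩ := h
  exact hw ▸ w.2

/-- The hypotheses of the first case. -/
structure HallHyp (G : Type*) [Group G] (m n p : ℕ) (x : G) : Prop where
  hyp : Hyp G m n
  prime : p.Prime
  pow : ∃ e : ℕ, 0 < e ∧ m = p ^ e
  div : ∀ r : ℕ, r.Prime → r ∣ Nat.card G → r ≠ p → r ∣ n
  pElt : IsPElt p x
  idx_x : idx x = m

namespace HallHyp

variable {m n p : ℕ} {x : G} (D : HallHyp G m n p x)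
include D

omit [Finite G] in
theorem dvd_m : p ∣ m := by
  obtain ⟨e, he, rfl⟩ := D.pow
  exact dvd_pow_self p he.ne'

theorem not_central : x ∉ Subgroup.center G := D.hyp.not_central_of_m D.idx_x

theorem nice : Nice (cen x) p := D.hyp.nice_cen D.prime D.dvd_m D.pElt D.not_central

omit [Finite G] in
theorem fact_m {r : ℕ} (hr : r.Prime) (hrp : r ≠ p) : m.factorization r = 0 := by
  obtain ⟨e, -, rfl⟩ := D.pow
  rw [D.prime.factorization_pow, Finsupp.single_eq_of_ne hrp]

theorem fact_cen_of_m {r : ℕ} (hr : r.Prime) (hrp : r ≠ p) {g : G} (hg : idx g = m) :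
    (Nat.card (cen g)).factorization r = (Nat.card G).factorization r := by
  have := card_fact_add g r
  rw [hg, D.fact_m hr hrp, add_zero] at this
  exact this

theorem fact_C {r : ℕ} (hr : r.Prime) (hrp : r ≠ p) :
    (Nat.card (cen x)).factorization r = (Nat.card G).factorization r :=
  D.fact_cen_of_m hr hrp D.idx_x

theorem center_lt {r : ℕ} (hr : r.Prime) (hrG : r ∣ Nat.card G) (hrp : r ≠ p) :
    (Nat.card (Subgroup.center G)).factorization r < (Nat.card G).factorization r := by
  obtain ⟨g, hg⟩ := D.hyp.exists_mn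
  exact factorization_center_lt hr (g := g) (hg ▸ (D.div r hr hrG hrp).mul_left m)

/-- Elements of the centraliser of `x` with class size `m * n` have their centraliser inside it. -/
theorem cen_le_of_mn {b : G} (hb : b ∈ cen x) (hbp : (orderOf b).Coprime p) (hbi : idx b = m * n) :
    cen b ≤ cen x := by
  have hcomm : Commute x b := (mem_cen.1 hb).symm
  have hcop := coprime_of_pElt_of_coprime D.prime D.pElt hbp
  have hle : cen (x * b) ≤ cen b := by
    rw [cen_mul_eq_inf hcomm hcop]; exact inf_le_right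
  have h := D.hyp.idx_eq_mn_of_le hle hbi (mul_not_central hcomm hcop D.not_central)
  rw [← cen_eq_of_le_of_idx hle (h.trans hbi.symm).le, cen_mul_eq_inf hcomm hcop]
  exact inf_le_left

/-- A Sylow subgroup in both centralisers forces them to be equal. -/
theorem eq_of_common {r : ℕ} (hr : r.Prime) (hrG : r ∣ Nat.card G) (hrp : r ≠ p) {b : G}
    (hb : b ∈ cen x) (hbr : IsPElt r b) (hbi : idx b = m) {Q : Subgroup G}
    (hQ : Nat.card Q = r ^ (Nat.card G).factorization r) (hQx : Q ≤ cen x) (hQb : Q ≤ cen b) :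
    cen b = cen x := by
  have hcomm : Commute x b := (mem_cen.1 hb).symm
  have hcop := coprime_of_pElt_of_coprime D.prime D.pElt (coprime_of_pElt D.prime hr hrp hbr)
  have hbZ := D.hyp.not_central_of_m hbi
  have hf : (idx (x * b)).factorization r = 0 := by
    have h1 := card_fact_add (x * b) r
    have h2 := fact_le_of_le (show Q ≤ cen (x * b) by
      rw [cen_mul_eq_inf hcomm hcop]; exact le_inf hQx hQb) r
    rw [hQ, hr.factorization_pow, Finsupp.single_eq_same] at h2
    omega
  have hi : idx (x * b) = m := by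
    refine (D.hyp.tri _ (mul_not_central hcomm hcop D.not_central)).resolve_right fun h => ?_
    rw [h] at hf
    have := hr.factorization_pos_of_dvd (Nat.mul_ne_zero D.hyp.m_ne_zero D.hyp.n_ne_zero)
      ((D.div r hr hrG hrp).mul_left m)
    omega
  have e1 := cen_eq_of_le_of_idx (a := x * b) (b := x)
    (by rw [cen_mul_eq_inf hcomm hcop]; exact inf_le_left) (hi.trans D.idx_x.symm).le
  have e2 := cen_eq_of_le_of_idx (a := x * b) (b := b)
    (by rw [cen_mul_eq_inf hcomm hcop]; exact inf_le_right) (hi.trans hbi.symm).le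
  rw [← e1, ← e2]

theorem cen_eq_of_m {r : ℕ} (hr : r.Prime) (hrG : r ∣ Nat.card G) (hrp : r ≠ p) {b : G}
    (hb : b ∈ cen x) (hbr : IsPElt r b) (hbi : idx b = m) : cen b = cen x := by
  haveI := Fact.mk hr
  haveI := Fact.mk D.prime
  have hbb : b ∈ cen b := mem_cen.2 rfl
  obtain ⟨S, hS⟩ := (isPGroup_zpowers (x := (⟨b, hbb⟩ : cen b))
    (by obtain ⟨k, hk⟩ := hbr; exact ⟨k, Subtype.ext hk⟩)).exists_le_sylow
  set Q := (S : Subgroup (cen b)).map (cen b).subtype with hQdef
  have hQ : Nat.card Q = r ^ (Nat.card G).factorization r := by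
    rw [hQdef, Subgroup.card_map_of_injective (cen b).subtype_injective, S.card_eq_multiplicity,
      D.fact_cen_of_m hr hrp hbi]
  have hQb : Q ≤ cen b := Subgroup.map_subtype_le _
  have hQr : IsPGroup r Q := S.2.map _
  obtain ⟨g, hg⟩ := exists_conj_sylow_le (K := cen x) hQr (D.fact_C hr hrp)
  have hQ' : Nat.card (Q.map (MulAut.conj g).toMonoidHom) = r ^ (Nat.card G).factorization r := by
    rw [Subgroup.card_map_of_injective (f := (MulAut.conj g).toMonoidHom) (MulAut.conj g).injective, hQ]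
  have heq : cen (g * b * g⁻¹) = cen x := by
    refine D.eq_of_common hr hrG hrp (hg b ⟨_, hS (Subgroup.mem_zpowers _), rfl⟩) (isPElt_conj hbr g)
      ((idx_conj b g).trans hbi) hQ' ?_ ?_
    · rintro _ ⟨v, hv, rfl⟩
      exact hg v hv
    · rw [cen_conj]
      exact Subgroup.map_mono hQb
  have hbD : cen b = cen (g⁻¹ * x * g) := by
    have h1 := cen_conj g⁻¹ (g * b * g⁻¹)
    rw [heq, ← cen_conj, inv_inv] at h1
    simpa [mul_assoc] using h1
  have hN : Nice (cen b) p := by
    rw [hbD]
    exact D.hyp.nice_cen D.prime D.dvd_m (by simpa using isPElt_conj D.pElt g⁻¹)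
      (by simpa using conj_not_central D.not_central g⁻¹)
  refine D.eq_of_common hr hrG hrp hb hbr hbi hQ (fun v hv => ?_) hQb
  exact mem_cen.2 (hN.commute (mem_cen.2 (mem_cen.1 hb).symm) (hQb hv) D.pElt
    (coprime_of_pElt D.prime hr hrp (isPElt_of_mem hQr hv))).eq

/-- The `r`-part of the group is that of the centre times that of `n`. -/
theorem fact_eq {r : ℕ} (hr : r.Prime) (hrp : r ≠ p) :
    (Nat.card G).factorization r =
      (Nat.card (Subgroup.center G)).factorization r + n.factorization r := by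
  haveI := Fact.mk D.prime
  have hCtop : cen x ≠ ⊤ := fun h => D.not_central (Subgroup.mem_center_iff.2 fun g =>
    mem_cen.1 (h.symm ▸ Subgroup.mem_top g : g ∈ cen x))
  obtain ⟨g, hg⟩ : ∃ g : G, ∀ k : G, k⁻¹ * g * k ∉ cen x := by
    by_contra hno
    push Not at hno
    exact hCtop (CfsgLib.ClassSizes.eq_top_of_conj_cover (cen x) hno)
  have hgZ : g ∉ Subgroup.center G := fun h => hg 1 (by simpa using center_le_cen x h)
  have hcentral : ∀ q : ℕ, q.Prime → q ≠ p → ∀ e ∈ cen g, IsPElt q e → e ∈ Subgroup.center G := by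
    intro q hq hqp e he heq
    by_contra heZ
    haveI := Fact.mk hq
    have hqG : q ∣ Nat.card G := by
      have h1 : orderOf e ≠ 1 := fun h => heZ (orderOf_eq_one_iff.1 h ▸ one_mem _)
      obtain ⟨k, hk⟩ := heq
      obtain ⟨j, -, hj⟩ := (Nat.dvd_prime_pow hq).1 (orderOf_dvd_of_pow_eq_one hk)
      have hj0 : j ≠ 0 := fun h => h1 (by rw [hj, h, pow_zero])
      exact ((dvd_pow_self q hj0).trans (hj ▸ dvd_rfl)).trans (orderOf_dvd_natCard e)
    obtain ⟨k, hk⟩ := exists_conj_sylow_le (K := cen x) (isPGroup_zpowers heq) (D.fact_C hq hqp)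
    have hkC := hk e (Subgroup.mem_zpowers e)
    have hk' : k * g * k⁻¹ ∈ cen (k * e * k⁻¹) := by
      rw [cen_conj]; exact ⟨g, mem_cen.2 (mem_cen.1 he).symm, rfl⟩
    refine hg k⁻¹ ?_
    rw [inv_inv]
    rcases D.hyp.tri _ (conj_not_central heZ k) with h | h
    · rwa [← D.cen_eq_of_m hq hqG hqp hkC (isPElt_conj heq k) h]
    · exact D.cen_le_of_mn hkC (coprime_of_pElt D.prime hq hqp (isPElt_conj heq k)) h hk'
  have hgi : idx g = m * n := by
    refine (D.hyp.tri g hgZ).resolve_left fun h => ?_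
    obtain ⟨q, hq, hqn⟩ := Nat.exists_prime_and_dvd (by have := D.hyp.one_lt_n; omega : n ≠ 1)
    haveI := Fact.mk hq
    have hqp : q ≠ p := fun h => D.prime.not_dvd_one (D.hyp.cop ▸ Nat.dvd_gcd D.dvd_m (h ▸ hqn))
    obtain ⟨g', hg'⟩ := D.hyp.exists_mn
    have hqG : q ∣ Nat.card G :=
      ((hqn.mul_left m).trans (hg' ▸ dvd_rfl)).trans (cen g').index_dvd_card
    have h1 := factorization_le_center q (cen g) (hcentral q hq hqp)
    have h2 := D.center_lt hq hqG hqp
    rw [D.fact_cen_of_m hq hqp h] at h1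
    omega
  haveI := Fact.mk hr
  have h1 := factorization_le_center r (cen g) (hcentral r hr hrp)
  have h2 := fact_le_of_le (center_le_cen g) r
  have h3 := card_fact_add g r
  rw [hgi, Nat.factorization_mul D.hyp.m_ne_zero D.hyp.n_ne_zero, Finsupp.add_apply,
    D.fact_m hr hrp] at h3
  omega

theorem central_of_mn {g : G} (hg : idx g = m * n) {r : ℕ} (hr : r.Prime) (hrp : r ≠ p) {e : G}
    (he : e ∈ cen g) (her : IsPElt r e) : e ∈ Subgroup.center G := by
  by_contra heZ
  haveI := Fact.mk hr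
  have h1 := center_fact_lt (center_le_cen g) he her heZ
  have h3 := card_fact_add g r
  rw [hg, Nat.factorization_mul D.hyp.m_ne_zero D.hyp.n_ne_zero, Finsupp.add_apply,
    D.fact_m hr hrp, D.fact_eq hr hrp] at h3
  omega

theorem idx_of_pElt {r : ℕ} (hr : r.Prime) (hrp : r ≠ p) {e : G} (her : IsPElt r e)
    (heZ : e ∉ Subgroup.center G) : idx e = m :=
  (D.hyp.tri e heZ).resolve_right fun h => heZ (D.central_of_mn h hr hrp (mem_cen.2 rfl) her)

omit D [Finite G] in
theorem dvd_card_of_pElt {r : ℕ} (hr : r.Prime) {e : G} (her : IsPElt r e) (he : e ≠ 1) :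
    r ∣ Nat.card G := by
  obtain ⟨k, hk⟩ := her
  obtain ⟨j, -, hj⟩ := (Nat.dvd_prime_pow hr).1 (orderOf_dvd_of_pow_eq_one hk)
  have hj0 : j ≠ 0 := fun h => he (orderOf_eq_one_iff.1 (by rw [hj, h, pow_zero]))
  exact ((dvd_pow_self r hj0).trans (hj ▸ dvd_rfl)).trans (orderOf_dvd_natCard e)

theorem cen_eq_of_mem {r : ℕ} (hr : r.Prime) (hrp : r ≠ p) {b : G} (hb : b ∈ cen x) (hbr : IsPElt r b)
    (hbZ : b ∉ Subgroup.center G) : cen b = cen x :=
  D.cen_eq_of_m hr (dvd_card_of_pElt hr hbr fun h => hbZ (h ▸ one_mem _)) hrp hb hbr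
    (D.idx_of_pElt hr hrp hbr hbZ)

/-- A noncentral element of order prime to `p` in the centraliser. -/
theorem exists_other : ∃ r : ℕ, r.Prime ∧ r ≠ p ∧ ∃ b ∈ cen x, IsPElt r b ∧ b ∉ Subgroup.center G := by
  obtain ⟨r, hr, hrn⟩ := Nat.exists_prime_and_dvd (by have := D.hyp.one_lt_n; omega : n ≠ 1)
  haveI := Fact.mk hr
  have hrp : r ≠ p := fun h => D.prime.not_dvd_one (D.hyp.cop ▸ Nat.dvd_gcd D.dvd_m (h ▸ hrn))
  obtain ⟨g', hg'⟩ := D.hyp.exists_mn
  have hrG : r ∣ Nat.card G := ((hrn.mul_left m).trans (hg' ▸ dvd_rfl)).trans (cen g').index_dvd_card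
  refine ⟨r, hr, hrp, exists_prime_pElt_not_central r _ ?_⟩
  rw [D.fact_C hr hrp]
  exact D.center_lt hr hrG hrp

theorem commute {a b : G} (ha : a ∈ cen x) (hb : b ∈ cen x) : a * b = b * a := by
  have key : cen x ≤ Subgroup.centralizer (cen x : Set G) := by
    refine le_of_forall_pElt fun q hq v hv hvq => ?_
    suffices h : cen x ≤ cen v by
      exact Subgroup.mem_centralizer_iff.2 fun c hc => mem_cen.1 (h hc)
    by_cases hvZ : v ∈ Subgroup.center G
    · intro c _
      exact mem_cen.2 (Subgroup.mem_center_iff.1 hvZ c)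
    by_cases hqp : q = p
    · rw [hqp] at hvq
      obtain ⟨r, hr, hrp, b, hb, hbr, hbZ⟩ := D.exists_other
      have hcb := D.cen_eq_of_mem hr hrp hb hbr hbZ
      have hvb : Commute v b := mem_cen.1 (hcb.symm ▸ hv : v ∈ cen b)
      have hcop := coprime_of_pElt_of_coprime D.prime hvq (coprime_of_pElt D.prime hr hrp hbr)
      have hcen : cen (v * b) = cen v ⊓ cen x := by rw [cen_mul_eq_inf hvb hcop, hcb]
      have hi : idx (v * b) = m := by
        refine (D.hyp.tri _ (mul_not_central hvb hcop hvZ)).resolve_right fun h => hbZ ?_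
        exact D.central_of_mn h hr hrp (hcen ▸ ⟨mem_cen.2 hvb.eq.symm, hb⟩) hbr
      have e1 := cen_eq_of_le_of_idx (a := v * b) (b := x) (hcen ▸ inf_le_right)
        (hi.trans D.idx_x.symm).le
      rw [← e1, hcen]
      exact inf_le_left
    · exact (D.cen_eq_of_mem hq hqp hv hvq hvZ).ge
  exact Subgroup.mem_centralizer_iff.1 (key hb) a ha

theorem sharp {g : G} (hg : g ∈ cen x) (hgZ : g ∉ Subgroup.center G) : cen g = cen x :=
  (D.hyp.cen_eq_of_le_m (fun c hc => mem_cen.2 (D.commute hc hg)) D.idx_x hgZ).symm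

theorem isMulCommutative : IsMulCommutative (cen x) :=
  ⟨⟨fun a b => Subtype.ext (D.commute a.2 b.2)⟩⟩

theorem isSolvable : Group.IsSolvable G := by
  obtain ⟨e, -, he⟩ := D.pow
  exact isSolvable_of_abelian_primePow_index D.prime (cen x) D.isMulCommutative (D.idx_x.trans he)

/-- The centraliser of `x` is normal. -/
theorem normal : (cen x).Normal := by
  haveI := Fact.mk D.prime
  haveI := D.isSolvable
  -- a noncentral core
  obtain ⟨r, hr, hrZ⟩ : ∃ r : ℕ, r.Prime ∧ ¬ Cfsg.pCore r G ≤ Subgroup.center G := by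
    by_contra hno
    push Not at hno
    have h1 : Cfsg.fittingSubgroup G ≤ Subgroup.center G := by
      rw [CfsgLib.Constrained.fitting_eq_iSup_pCore]
      exact iSup₂_le hno
    refine D.not_central (h1 (CfsgLib.Constrained.centralizer_fitting_le ?_))
    exact Subgroup.mem_centralizer_iff.2 fun c hc =>
      ((Subgroup.mem_center_iff.1 (h1 hc)) x).symm
  haveI := Fact.mk hr
  set T := Cfsg.pCore r G with hT
  have hTn : T.Normal := by infer_instance
  have hTr : IsPGroup r T := CfsgLib.LocalP.isPGroup_pCore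
  have hTC : T ≤ cen x := by
    by_cases hrp : r = p
    · subst hrp
      obtain ⟨P, hP⟩ := (isPGroup_zpowers D.pElt).exists_le_sylow
      have hTP : T ≤ (P : Subgroup G) := hTr.le_sylow_of_normal P
      obtain ⟨v, hvT, hvZ, hvc⟩ := CfsgLib.TwoRegular.exists_central_mod (L := Subgroup.center G) P.2 hTP
        (fun g _ t ht => hTn.conj_mem t ht g)
        (fun g _ l hl => (inferInstance : (Subgroup.center G).Normal).conj_mem l hl g) hrZ
      obtain ⟨q, hq, hqr, b, hb, hbq, hbZ⟩ := D.exists_other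
      have hcb := D.cen_eq_of_mem hq hqr hb hbq hbZ
      have hcop : ∀ e ∈ T, (orderOf e).Coprime (orderOf b) := fun e he =>
        coprime_of_pElt_of_coprime D.prime (isPElt_of_mem hTr he) (coprime_of_pElt D.prime hq hqr hbq)
      -- `[b, t]` in `cen x` is trivial
      have key : ∀ t ∈ T, b * t * b⁻¹ * t⁻¹ ∈ cen x → t ∈ cen x := fun t ht he => by
        have he' : b * t * b⁻¹ * t⁻¹ ∈ T := mul_mem (hTn.conj_mem t ht b) (inv_mem ht)
        have h1 := eq_one_of_conj_eq (a := b) (v := t) (c := b * t * b⁻¹ * t⁻¹) (by group)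
          (D.commute hb he) (hcop _ he')
        rw [← hcb]
        refine mem_cen.2 ?_
        have h2 : b * t * b⁻¹ = t := mul_inv_eq_one.1 h1
        calc t * b = b * t * b⁻¹ * b := by rw [h2]
          _ = b * t := by group
      have hvx : v ∈ cen x := by
        refine key v hvT (mem_cen.2 ?_)
        have hc := hvc x (hP (Subgroup.mem_zpowers x))
        rw [commutatorElement_def] at hc
        set c := x * v * x⁻¹ * v⁻¹ with hcdef
        have hxv : x * v * x⁻¹ = c * v := by rw [hcdef]; group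
        have hcc : ∀ w : G, w * c = c * w := Subgroup.mem_center_iff.1 hc
        have hxb : x * b * x⁻¹ = b := by
          rw [← mem_cen.1 hb, mul_inv_cancel_right]
        have h2 : x * (b * v * b⁻¹ * v⁻¹) * x⁻¹ = b * v * b⁻¹ * v⁻¹ := by
          calc x * (b * v * b⁻¹ * v⁻¹) * x⁻¹
              = (x * b * x⁻¹) * (x * v * x⁻¹) * (x * b * x⁻¹)⁻¹ * (x * v * x⁻¹)⁻¹ := by group
            _ = b * c * v * b⁻¹ * (c * v)⁻¹ := by rw [hxb, hxv]; group
            _ = c * b * v * b⁻¹ * v⁻¹ * c⁻¹ := by rw [hcc b]; group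
            _ = b * v * b⁻¹ * v⁻¹ := by
              rw [show c * b * v * b⁻¹ * v⁻¹ = c * (b * v * b⁻¹ * v⁻¹) by group,
                ← hcc (b * v * b⁻¹ * v⁻¹), mul_inv_cancel_right]
        calc b * v * b⁻¹ * v⁻¹ * x = x * (b * v * b⁻¹ * v⁻¹) * x⁻¹ * x := by rw [h2]
          _ = x * (b * v * b⁻¹ * v⁻¹) := by group
      intro t ht
      refine key t ht ?_
      -- `t` normalises the centraliser
      have hc := hvc t (hTP ht)
      rw [commutatorElement_def] at hc
      have h1 : cen (t * v * t⁻¹) = cen v := by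
        conv_lhs => rw [show t * v * t⁻¹ = t * v * t⁻¹ * v⁻¹ * v by group]
        exact cen_central_mul hc
      rw [cen_conj, D.sharp hvx hvZ] at h1
      have h2 : t * b⁻¹ * t⁻¹ ∈ cen x := h1 ▸ ⟨b⁻¹, inv_mem hb, rfl⟩
      simpa [mul_assoc] using mul_mem hb h2
    · obtain ⟨Q⟩ : Nonempty (Sylow r (cen x)) := inferInstance
      obtain ⟨S, hS⟩ := (Q.2.map (cen x).subtype).exists_le_sylow
      have hQS := Subgroup.eq_of_le_of_card_ge hS (le_of_eq (by
        rw [Subgroup.card_map_of_injective (cen x).subtype_injective, S.card_eq_multiplicity,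
          Q.card_eq_multiplicity, D.fact_C hr hrp]))
      exact ((hTr.le_sylow_of_normal S).trans hQS.ge).trans (Subgroup.map_subtype_le _)
  refine ⟨fun c hc g => ?_⟩
  obtain ⟨t, ht, htZ⟩ := SetLike.not_le_iff_exists.1 hrZ
  have h1 : cen (g * t * g⁻¹) = cen x := D.sharp (hTC (hTn.conj_mem t ht g)) (conj_not_central htZ g)
  rw [cen_conj, D.sharp (hTC ht) htZ] at h1
  exact h1 ▸ ⟨c, hc, rfl⟩

end HallHyp

end CfsgLib.RankTwoClass
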