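import Cfsg.Agent.RankTwoClass.Basic
import Cfsg.Agent.SymplecticType.Burnside
import Cfsg.Agent.Coprime.Generation
import Mathlib

/-!
Two primes whose commuting noncentral elements always share their centraliser.
-/

set_option autoImplicit false

namespace CfsgLib.RankTwoClass

open CfsgLib.TwoSizes (cen mem_cen IsPElt cen_mul_le center_le_cen cen_eq_top)
open CfsgLib.CoprimeLargest (cen_central_mul coprime_orderOf_of_pElt exists_prime_pElt_not_central)

variable {G : Type*} [Group G] [Finite G]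

/-- Commuting noncentral elements of the two prime power orders have equal centralisers. -/
structure Pair (G : Type*) [Group G] (s u : ℕ) : Prop where
  ps : s.Prime
  pu : u.Prime
  ne : s ≠ u
  nonab : Subgroup.center G ≠ ⊤
  pair : ∀ x w : G, IsPElt s x → x ∉ Subgroup.center G → IsPElt u w → w ∉ Subgroup.center G →
    Commute x w → cen x = cen w
  ex_s : ∀ g : G, g ∉ Subgroup.center G → ∃ e ∈ cen g, IsPElt s e ∧ e ∉ Subgroup.center G
  ex_u : ∀ g : G, g ∉ Subgroup.center G → ∃ e ∈ cen g, IsPElt u e ∧ e ∉ Subgroup.center G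
  const_s : ∀ x y : G, IsPElt s x → x ∉ Subgroup.center G → IsPElt s y → y ∉ Subgroup.center G →
    (Nat.card (cen x)).factorization s = (Nat.card (cen y)).factorization s
  const_u : ∀ x y : G, IsPElt u x → x ∉ Subgroup.center G → IsPElt u y → y ∉ Subgroup.center G →
    (Nat.card (cen x)).factorization u = (Nat.card (cen y)).factorization u

omit [Finite G] in
theorem isPElt_mul {s : ℕ} {a b : G} (h : Commute a b) (ha : IsPElt s a) (hb : IsPElt s b) :
    IsPElt s (a * b) := by
  obtain ⟨i, hi⟩ := ha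
  obtain ⟨j, hj⟩ := hb
  refine ⟨i + j, ?_⟩
  rw [h.mul_pow, pow_add, pow_mul, hi, one_pow, mul_comm, pow_mul, hj, one_pow, one_mul]

omit [Finite G] in
theorem isPElt_inv {s : ℕ} {a : G} (ha : IsPElt s a) : IsPElt s a⁻¹ := by
  obtain ⟨i, hi⟩ := ha
  exact ⟨i, by rw [inv_pow, hi, inv_one]⟩

/-- An `s`-subgroup of `K` with all `s`-elements of `K` has the full `s`-part. -/
theorem card_eq_of_all_pElt {s : ℕ} [hs : Fact s.Prime] {U K : Subgroup G} (hUK : U ≤ K) (hU : IsPGroup s U)
    (hall : ∀ v ∈ K, IsPElt s v → v ∈ U) : Nat.card U = s ^ (Nat.card K).factorization s := by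
  obtain ⟨k, hk⟩ := hU.exists_card_eq
  have h1 := fact_le_of_le hUK s
  rw [hk, hs.out.factorization_pow, Finsupp.single_eq_same] at h1
  obtain ⟨S⟩ : Nonempty (Sylow s K) := inferInstance
  have h2 : Nat.card ((S : Subgroup K).map K.subtype) ≤ Nat.card U := Subgroup.card_le_of_le (by
    rintro _ ⟨v, hv, rfl⟩
    exact hall v v.2 (isPElt_of_mem (S.2.map K.subtype) (Subgroup.mem_map_of_mem _ hv)))
  rw [Subgroup.card_map_of_injective K.subtype_injective, S.card_eq_multiplicity, hk,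
    Nat.pow_le_pow_iff_right hs.out.one_lt] at h2
  rw [hk, le_antisymm h1 h2]

namespace Pair

variable {s u : ℕ} (P : Pair G s u)
include P

omit [Finite G] in
theorem symm : Pair G u s :=
  ⟨P.pu, P.ps, P.ne.symm, P.nonab, fun x w hx hxZ hw hwZ h => (P.pair w x hw hwZ hx hxZ h.symm).symm,
    P.ex_u, P.ex_s, P.const_u, P.const_s⟩

omit [Finite G] in
theorem cen_eq {x y : G} (hx : IsPElt s x) (hxZ : x ∉ Subgroup.center G) (hy : IsPElt s y)
    (hyZ : y ∉ Subgroup.center G) (h : Commute x y) : cen x = cen y := by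
  obtain ⟨w, hw, hwu, hwZ⟩ := P.ex_u x hxZ
  have h1 := P.pair x w hx hxZ hwu hwZ (mem_cen.1 hw).symm
  have h2 : y ∈ cen w := h1 ▸ mem_cen.2 h.symm.eq
  rw [h1, P.pair y w hy hyZ hwu hwZ (mem_cen.1 h2)]

/-- The exponent of `s` in a centraliser, and the action on the `u`-part. -/
theorem core : ∃ x : G, IsPElt s x ∧ x ∉ Subgroup.center G ∧
    (Nat.card (cen x)).factorization s = (Nat.card (Subgroup.center G)).factorization s + 1 ∧
    ∃ w : G, IsPElt u w ∧ w ∉ Subgroup.center G ∧
      u ^ (Nat.card (cen w)).factorization u ≡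
        u ^ (Nat.card (Subgroup.center G)).factorization u [MOD s] := by
  classical
  haveI := Fact.mk P.ps
  haveI := Fact.mk P.pu
  obtain ⟨S⟩ : Nonempty (Sylow s G) := inferInstance
  -- a noncentral element of `S`, central modulo the centre
  obtain ⟨g1, hg1⟩ : ∃ g : G, g ∉ Subgroup.center G := by
    by_contra hno
    push Not at hno
    exact P.nonab (eq_top_iff.2 fun g _ => hno g)
  obtain ⟨e1, -, he1, he1Z⟩ := P.ex_s g1 hg1
  obtain ⟨S1, hS1⟩ := (isPGroup_zpowers he1).exists_le_sylow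
  obtain ⟨k1, hk1⟩ := MulAction.exists_smul_eq G S1 S
  set Z0 := (Subgroup.center G).subgroupOf (S : Subgroup G)
  haveI : Z0.Normal := Subgroup.normal_subgroupOf
  have hne : Z0 ≠ ⊤ := fun h => conj_not_central he1Z k1 (by
    have hm : k1 * e1 * k1⁻¹ ∈ (S : Subgroup G) := by
      rw [← hk1, Sylow.coe_subgroup_smul, Subgroup.mem_pointwise_smul_iff_inv_smul_mem]
      simpa [mul_assoc] using hS1 (Subgroup.mem_zpowers e1)
    exact Subgroup.subgroupOf_eq_top.1 h hm)
  obtain ⟨⟨x, hxS⟩, -, hxZ, hxp, hxc⟩ :=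
    CfsgLib.SymplecticType.exists_central_mod (K := (⊤ : Subgroup (S : Subgroup G))) S.2
      (le_top : Z0 ≤ ⊤) hne
  replace hxZ : x ∉ Subgroup.center G := hxZ
  replace hxp : x ^ s ∈ Subgroup.center G := hxp
  replace hxc : ∀ g ∈ (S : Subgroup G), g * x * g⁻¹ * x⁻¹ ∈ Subgroup.center G := fun g hg => hxc ⟨g, hg⟩
  have hxs : IsPElt s x := isPElt_of_mem S.2 hxS
  have hcx : ∀ g ∈ (S : Subgroup G), cen (g * x * g⁻¹) = cen x := fun g hg => by
    conv_lhs => rw [show g * x * g⁻¹ = g * x * g⁻¹ * x⁻¹ * x by group]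
    exact cen_central_mul (hxc g hg)
  -- an element of `S` whose centraliser is not conjugate to that of `x`
  have hCtop : cen x ≠ ⊤ := fun h => hxZ (Subgroup.mem_center_iff.2 fun g =>
    mem_cen.1 (h.symm ▸ Subgroup.mem_top g : g ∈ cen x))
  obtain ⟨g0, hg0⟩ : ∃ g0 : G, ∀ g : G, g⁻¹ * g0 * g ∉ cen x := by
    by_contra hno
    push Not at hno
    exact hCtop (CfsgLib.ClassSizes.eq_top_of_conj_cover (cen x) hno)
  have hg0Z : g0 ∉ Subgroup.center G := fun h => hg0 1 (by
    simpa using center_le_cen x h)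
  obtain ⟨y0, hy0, hy0s, hy0Z⟩ := P.ex_s g0 hg0Z
  have hy0m : y0 ∈ cen y0 := mem_cen.2 rfl
  obtain ⟨Q, hQ⟩ := (isPGroup_zpowers (x := (⟨y0, hy0m⟩ : cen y0))
    (by obtain ⟨k, hk⟩ := hy0s; exact ⟨k, Subtype.ext hk⟩)).exists_le_sylow
  obtain ⟨S2, hS2⟩ := (Q.2.map (cen y0).subtype).exists_le_sylow
  obtain ⟨k, hk⟩ := MulAction.exists_smul_eq G S2 S
  set y := k * y0 * k⁻¹ with hy
  have hys : IsPElt s y := isPElt_conj hy0s k
  have hyZ : y ∉ Subgroup.center G := conj_not_central hy0Z k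
  have hconj : ∀ v ∈ (S2 : Subgroup G), k * v * k⁻¹ ∈ (S : Subgroup G) := fun v hv => by
    rw [← hk, Sylow.coe_subgroup_smul, Subgroup.mem_pointwise_smul_iff_inv_smul_mem]
    simpa [mul_assoc] using hv
  have hyS : y ∈ (S : Subgroup G) :=
    hconj y0 (hS2 ⟨⟨y0, hy0m⟩, hQ (Subgroup.mem_zpowers _), rfl⟩)
  have hyC : y ∉ cen x := fun h => by
    have h' := P.cen_eq hys hyZ hxs hxZ (mem_cen.1 h)
    refine hg0 k⁻¹ ?_
    rw [← h', hy, cen_conj, inv_inv]
    exact ⟨g0, mem_cen.2 (mem_cen.1 hy0).symm, by simp⟩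
  -- elements of `S` outside `cen x`
  have hpow : ∀ g ∈ (S : Subgroup G), g ∉ cen x → g ^ s ∈ Subgroup.center G := by
    intro g hg hgx
    have hc := hxc g hg
    set c := g * x * g⁻¹ * x⁻¹ with hcdef
    have hgc : g * x * g⁻¹ = c * x := by rw [hcdef]; group
    have hc1 : c ^ s = 1 := by
      have h1 : (g * x * g⁻¹) ^ s = x ^ s := by
        rw [conj_pow, Subgroup.mem_center_iff.1 hxp g, mul_inv_cancel_right]
      rw [hgc, (show Commute c x from ((Subgroup.mem_center_iff.1 hc) x).symm).mul_pow] at h1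
      exact mul_eq_right.1 h1
    have h2 := conj_pow_eq hgc ((Subgroup.mem_center_iff.1 hc g)) s
    rw [hc1, one_mul] at h2
    have hgsx : g ^ s ∈ cen x := mem_cen.2 (by
      calc g ^ s * x = g ^ s * x * (g ^ s)⁻¹ * g ^ s := by group
        _ = x * g ^ s := by rw [h2])
    have hgs : IsPElt s g := isPElt_of_mem S.2 hg
    by_contra hno
    have hgs' : IsPElt s (g ^ s) := isPElt_of_mem S.2 (pow_mem hg s)
    have hgZ : g ∉ Subgroup.center G := fun h => hno (pow_mem h s)
    have h3 := P.cen_eq hgs' hno hxs hxZ (mem_cen.1 hgsx)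
    have h4 := P.cen_eq hgs' hno hgs hgZ ((Commute.refl g).pow_left s)
    exact hgx (h3 ▸ h4.symm ▸ mem_cen.2 rfl)
  -- the `u`-elements of `cen x`
  let U : Subgroup G :=
    { carrier := {v | v ∈ cen x ∧ IsPElt u v}
      one_mem' := ⟨one_mem _, 0, one_pow _⟩
      inv_mem' := fun h => ⟨inv_mem h.1, isPElt_inv h.2⟩
      mul_mem' := fun {a b} ha hb => ⟨mul_mem ha.1 hb.1, by
        refine isPElt_mul ?_ ha.2 hb.2
        by_cases haZ : a ∈ Subgroup.center G
        · exact (Subgroup.mem_center_iff.1 haZ b).symm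
        · have h := P.pair x a hxs hxZ ha.2 haZ (mem_cen.1 ha.1).symm
          exact (mem_cen.1 (h ▸ hb.1 : b ∈ cen a)).symm⟩ }
  have hUp : IsPGroup u U := by
    rintro ⟨v, hv⟩
    obtain ⟨j, hj⟩ := hv.2
    exact ⟨j, Subtype.ext hj⟩
  have hUn : ∀ g ∈ (S : Subgroup G), ∀ v ∈ U, g * v * g⁻¹ ∈ U := fun g hg v hv => by
    refine ⟨?_, isPElt_conj hv.2 g⟩
    rw [← hcx g hg, cen_conj]
    exact ⟨v, hv.1, by simp⟩
  obtain ⟨w, hwx, hwu, hwZ⟩ := P.ex_u x hxZ
  -- a noncentral element of `U` is moved by every noncentral element of `S` outside `cen x`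
  have hfix : ∀ v ∈ U, ∀ g : G, IsPElt s g → g ∉ cen x → Commute g v → v ∈ Subgroup.center G := by
    intro v hv g hg hgx hgv
    by_contra hvZ
    by_cases hgZ : g ∈ Subgroup.center G
    · exact hgx (center_le_cen x hgZ)
    · rw [P.pair x v hxs hxZ hv.2 hvZ (mem_cen.1 hv.1).symm, ← P.pair g v hg hgZ hv.2 hvZ hgv] at hgx
      exact hgx (mem_cen.2 rfl)
  set W := (S : Subgroup G) ⊓ cen y with hW
  have hWx : ∀ g ∈ W, g ∈ cen x → g ∈ Subgroup.center G := by
    intro g hg hgx
    by_contra hgZ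
    have hgs := isPElt_of_mem S.2 hg.1
    have h1 := P.cen_eq hgs hgZ hxs hxZ (mem_cen.1 hgx)
    have h2 := P.cen_eq hgs hgZ hys hyZ (mem_cen.1 hg.2)
    exact hyC (h1 ▸ h2.symm ▸ mem_cen.2 rfl)
  have hWc : ∀ a ∈ W, ∀ b ∈ W, a * b = b * a := by
    intro a ha b hb
    by_cases haZ : a ∈ Subgroup.center G
    · exact (Subgroup.mem_center_iff.1 haZ b).symm
    · have h := P.cen_eq (isPElt_of_mem S.2 ha.1) haZ hys hyZ (mem_cen.1 ha.2)
      exact (mem_cen.1 (h.symm ▸ hb.2 : b ∈ cen a)).symm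
  have hyW : y ∈ W := ⟨hyS, mem_cen.2 rfl⟩
  have hWp : IsPGroup s W := S.2.to_le inf_le_left
  have hline : ∀ g ∈ W, ∃ i : ℕ, g * y ^ i ∈ Subgroup.center G := by
    intro g hg
    by_contra hno
    push Not at hno
    have hgx : g ∉ cen x := fun h => hno 0 (by simpa using hWx g hg h)
    have hgs := hpow g hg.1 hgx
    have hys' := hpow y hyS hyC
    refine hwZ ?_
    refine CfsgLib.Coprime.le_of_lines_of_isSolvable (A := W) (G := U) (K := Subgroup.center G)
      ⟨⟨fun a b => Subtype.ext (hWc a a.2 b b.2)⟩⟩ hg hyW (q := s) ?_ ?_ ?_ ?_ ?_ ?_ ?_ ?_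
      (show w ∈ U from ⟨hwx, hwu⟩)
    · haveI := hUp.isNilpotent
      infer_instance
    · intro a ha
      refine Subgroup.mem_normalizer_iff.2 fun v => ⟨fun hv => hUn a ha.1 v hv, fun hv => ?_⟩
      simpa [mul_assoc] using hUn a⁻¹ (inv_mem ha.1) _ hv
    · exact IsPGroup.coprime_card_of_ne s u P.ne W U hWp hUp
    · obtain ⟨j, hj⟩ := hUp.exists_card_eq
      rw [hj]
      exact fun h => P.ne ((Nat.prime_dvd_prime_iff_eq P.ps P.pu).1 (P.ps.dvd_of_dvd_pow h))
    · exact Subgroup.center_le_centralizer _ hgs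
    · exact Subgroup.center_le_centralizer _ hys'
    · rintro i v ⟨hv, hvc⟩
      have hgy : g * y ^ i ∈ W := mul_mem hg (pow_mem hyW i)
      refine hfix v hv _ (isPElt_of_mem S.2 hgy.1) (fun h => hno i (hWx _ hgy h)) ?_
      exact (Subgroup.mem_centralizer_singleton_iff.1 hvc).symm
    · rintro v ⟨hv, hvc⟩
      exact hfix v hv y hys hyC (Subgroup.mem_centralizer_singleton_iff.1 hvc).symm
  refine ⟨x, hxs, hxZ, ?_, w, hwu, hwZ, ?_⟩
  · -- the exponent
    refine le_antisymm ?_ (center_fact_lt (center_le_cen x) (mem_cen.2 rfl) hxs hxZ)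
    set Zs := Subgroup.center G ⊓ (S : Subgroup G) with hZs
    have hys' := hpow y hyS hyC
    let f : Zs × Fin s → W := fun z =>
      ⟨z.1 * y ^ (z.2 : ℕ), mul_mem (show (z.1 : G) ∈ W from ⟨z.1.2.2, center_le_cen y z.1.2.1⟩)
        (pow_mem hyW _)⟩
    have hf : Function.Surjective f := by
      intro g
      obtain ⟨i, hi⟩ := hline g g.2
      -- `y ^ (s * i)` is central
      set j := i * (s - 1) % s with hj
      have hzc : (g : G) * (y ^ j)⁻¹ ∈ Subgroup.center G := by
        have e1 : y ^ (i + j) ∈ Subgroup.center G := by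
          obtain ⟨q, hq⟩ : s ∣ i + j := by
            have h1 : j ≡ i * (s - 1) [MOD s] := Nat.mod_modEq _ _
            refine Nat.modEq_zero_iff_dvd.1 ((h1.add_left i).trans (Nat.modEq_zero_iff_dvd.2 ?_))
            refine ⟨i, ?_⟩
            obtain ⟨s', rfl⟩ := Nat.exists_eq_add_of_le P.ps.one_lt.le
            rw [Nat.add_sub_cancel_left]
            ring
          rw [hq, pow_mul]
          exact pow_mem hys' q
        have e2 : (g : G) * (y ^ j)⁻¹ = g * y ^ i * (y ^ (i + j))⁻¹ := by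
          rw [pow_add]; group
        rw [e2]
        exact mul_mem hi (inv_mem e1)
      refine ⟨(⟨_, hzc, mul_mem g.2.1 ((S : Subgroup G).inv_mem (pow_mem hyS _))⟩, ⟨j, Nat.mod_lt _ P.ps.pos⟩),
        Subtype.ext (inv_mul_cancel_right _ _)⟩
    have h1 := Nat.card_le_card_of_surjective f hf
    rw [Nat.card_prod, Nat.card_fin] at h1
    obtain ⟨a, ha⟩ := (S.2.to_le (inf_le_right : Zs ≤ _)).exists_card_eq
    have hale : a ≤ (Nat.card (Subgroup.center G)).factorization s := by
      have := fact_le_of_le (inf_le_left : Zs ≤ Subgroup.center G) s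
      rwa [ha, P.ps.factorization_pow, Finsupp.single_eq_same] at this
    have hle : s ^ (Nat.card (cen x)).factorization s ≤ Nat.card W := by
      rw [P.const_s x y0 hxs hxZ hy0s hy0Z, ← Q.card_eq_multiplicity,
        ← Subgroup.card_map_of_injective (cen y0).subtype_injective,
        ← Subgroup.card_map_of_injective (f := (MulAut.conj k).toMonoidHom) (MulAut.conj k).injective]
      refine Subgroup.card_le_of_le ?_
      rintro _ ⟨v, hv, rfl⟩
      refine ⟨hconj v (hS2 hv), ?_⟩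
      rw [hy, cen_conj]
      obtain ⟨v', -, rfl⟩ := hv
      exact ⟨v', v'.2, rfl⟩
    rw [ha, ← pow_succ] at h1
    have h2 := (Nat.pow_le_pow_iff_right P.ps.one_lt).1 (hle.trans h1)
    omega
  · -- the action of `y` on `U`
    have hUcard : Nat.card U = u ^ (Nat.card (cen x)).factorization u :=
      card_eq_of_all_pElt (fun v hv => hv.1) hUp fun v hv hvu => ⟨hv, hvu⟩
    have hZcard : Nat.card (U ⊓ Subgroup.center G : Subgroup G) =
        u ^ (Nat.card (Subgroup.center G)).factorization u :=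
      card_eq_of_all_pElt inf_le_right (hUp.to_le inf_le_left)
        fun v hv hvu => ⟨⟨center_le_cen x hv, hvu⟩, hv⟩
    rw [← P.pair x w hxs hxZ hwu hwZ (mem_cen.1 hwx).symm, ← hUcard, ← hZcard]
    let σ : Function.End U := fun v => ⟨y * v * y⁻¹, hUn y hyS v v.2⟩
    have hσk : ∀ (j : ℕ) (v : U), (((σ ^ j) v : U) : G) = y ^ j * v * (y ^ j)⁻¹ := by
      intro j
      induction j with
      | zero => intro v; rw [pow_zero, pow_zero, one_mul, inv_one, mul_one]; rfl
      | succ j ih =>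
        intro v
        rw [pow_succ', pow_succ']
        show y * (((σ ^ j) v : U) : G) * y⁻¹ = _
        rw [ih]; group
    have hσ : σ ^ s ^ 1 = 1 := by
      funext v
      refine Subtype.ext ?_
      rw [pow_one, hσk, ← Subgroup.mem_center_iff.1 (hpow y hyS hyC) (v : G), mul_inv_cancel_right]
      rfl
    haveI := Fintype.ofFinite U
    have h1 := Equiv.Perm.card_fixedPoints_modEq (p := s) (f := σ) (n := 1) hσ
    rw [← Nat.card_eq_fintype_card, ← Nat.card_eq_fintype_card] at h1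
    have hfp : Nat.card (Function.fixedPoints σ) = Nat.card (U ⊓ Subgroup.center G : Subgroup G) := by
      refine Nat.card_congr
        { toFun := fun v => ⟨v.1.1, v.1.2, hfix _ v.1.2 y hys hyC ?_⟩
          invFun := fun v => ⟨⟨v.1, v.2.1⟩, Subtype.ext ?_⟩
          left_inv := fun v => rfl
          right_inv := fun v => rfl }
      · have e : y * (v.1 : G) * y⁻¹ = v.1 := congrArg Subtype.val v.2
        calc y * (v.1 : G) = y * (v.1 : G) * y⁻¹ * y := by group
          _ = (v.1 : G) * y := by rw [e]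
      · show y * v.1 * y⁻¹ = v.1
        rw [Subgroup.mem_center_iff.1 v.2.2 y, mul_inv_cancel_right]
    rwa [hfp] at h1

theorem lt : s < u := by
  obtain ⟨x, -, -, -, w, hw, hwZ, hmod⟩ := P.core
  obtain ⟨w', hw', hw'Z, hc, -⟩ := P.symm.core
  rw [P.const_u w w' hw hwZ hw' hw'Z, hc, pow_succ] at hmod
  have hcop : s.Coprime (u ^ (Nat.card (Subgroup.center G)).factorization u) :=
    ((Nat.coprime_primes P.ps P.pu).2 P.ne).pow_right _
  have h1 : u ≡ 1 [MOD s] :=
    Nat.ModEq.cancel_left_of_coprime hcop (by rwa [mul_one])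
  have h2 : s ∣ u - 1 := (Nat.modEq_iff_dvd' P.pu.one_le).1 h1.symm
  have := Nat.le_of_dvd (by have := P.pu.two_le; omega) h2
  have := P.pu.two_le
  omega

theorem not_pair : False := by
  have := P.lt; have := P.symm.lt; omega

end Pair

end CfsgLib.RankTwoClass
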