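import Cfsg.Agent.RankTwoClass.CaseHall
import Cfsg.Agent.RankTwoClass.TwoPrimes
import Cfsg.Agent.SymplecticType.Burnside
import Cfsg.Agent.Coprime.Generation
import Mathlib

/-!
Class sizes `1`, `m`, `m * n` where a `p`-element has class size `m`: the conclusion.
-/

set_option autoImplicit false

namespace CfsgLib.RankTwoClass

open CfsgLib.TwoSizes (cen mem_cen IsPElt cen_mul_le center_le_cen cen_eq_top le_of_forall_pElt)
open CfsgLib.CoprimeLargest (idx idx_ne_zero idx_eq_one_iff idx_conj cen_central_mul idx_dvd_of_le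
  cen_eq_of_le_of_idx coprime_orderOf_of_pElt exists_prime_pElt_not_central factorization_le_center)

variable {G : Type*} [Group G] [Finite G]

namespace HallHyp

variable {m n p : ℕ} {x : G} (D : HallHyp G m n p x)
include D

theorem mem_of_idx_eq {g : G} (hg : idx g = m) : g ∈ cen x := by
  haveI := Fact.mk D.prime
  obtain ⟨r, hr, hrp, b, hb, hbr, hbZ⟩ := D.exists_other
  haveI := Fact.mk hr
  have hlt := center_fact_lt (center_le_cen x) hb hbr hbZ
  rw [D.fact_C hr hrp, ← D.fact_cen_of_m hr hrp hg] at hlt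
  obtain ⟨e, he, her, heZ⟩ := exists_prime_pElt_not_central r (cen g) hlt
  obtain ⟨k, hk⟩ := exists_conj_sylow_le (K := cen x) (isPGroup_zpowers her) (D.fact_C hr hrp)
  have heC : e ∈ cen x := by
    have h := D.normal.conj_mem _ (hk e (Subgroup.mem_zpowers e)) k⁻¹
    simpa [mul_assoc] using h
  rw [← D.sharp heC heZ]
  exact mem_cen.2 (mem_cen.1 he).symm

theorem central_of_commute {g v : G} (hg : g ∉ cen x) (hv : v ∈ cen x) (h : Commute g v) :
    v ∈ Subgroup.center G := by
  by_contra hvZ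
  exact hg (D.sharp hv hvZ ▸ mem_cen.2 h.eq)

theorem pow_central {g : G} {k : ℕ} (hg : g ∉ cen x) (h : g ^ k ∈ cen x) : g ^ k ∈ Subgroup.center G :=
  D.central_of_commute hg h ((Commute.refl g).pow_right k)

theorem le_sylow (P : Sylow p G) {u : G} (hu : u ∈ cen x) (hup : IsPElt p u) : u ∈ (P : Subgroup G) := by
  haveI := Fact.mk D.prime
  haveI : (sPart (cen x) p).Normal := ⟨fun v hv g => by
    rw [D.nice.mem_sPart] at hv ⊢
    exact ⟨D.normal.conj_mem v hv.1 g, isPElt_conj hv.2 g⟩⟩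
  exact D.nice.isPGroup.le_sylow_of_normal P (D.nice.mem_sPart.2 ⟨hu, hup⟩)

theorem cPart_normal : (cPart (cen x) p).Normal := by
  haveI := Fact.mk D.prime
  refine ⟨fun v hv g => ?_⟩
  rw [D.nice.mem_cPart] at hv ⊢
  refine ⟨D.normal.conj_mem v hv.1 g, ?_⟩
  rw [show g * v * g⁻¹ = MulAut.conj g v from rfl, MulEquiv.orderOf_eq]
  exact hv.2

/-- Elements of a Sylow subgroup outside the centraliser: their `p`-th powers and commutators. -/
theorem sylow_mod (P : Sylow p G) :
    ∃ t ∈ (P : Subgroup G), t ∈ cen x ∧ t ∉ Subgroup.center G ∧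
      (∀ g ∈ (P : Subgroup G), g * t * g⁻¹ * t⁻¹ ∈ Subgroup.center G) ∧
      (∀ g ∈ (P : Subgroup G), g ∉ cen x → g ^ p ∈ Subgroup.center G) ∧
      ∀ g ∈ (P : Subgroup G), ∀ h ∈ (P : Subgroup G), g * h * g⁻¹ * h⁻¹ ∈ cen x := by
  haveI := Fact.mk D.prime
  haveI := D.normal
  set A := (Subgroup.center G).subgroupOf (P : Subgroup G)
  set K := (cen x).subgroupOf (P : Subgroup G)
  haveI : A.Normal := Subgroup.normal_subgroupOf
  haveI : K.Normal := Subgroup.normal_subgroupOf
  have hne : A ≠ K := fun h => D.not_central (by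
    have hx : (⟨x, D.le_sylow P (mem_cen.2 rfl) D.pElt⟩ : (P : Subgroup G)) ∈ K :=
      show x ∈ cen x from mem_cen.2 rfl
    rw [← h] at hx
    exact hx)
  obtain ⟨⟨t, htP⟩, htC, htZ, htp, htc⟩ := CfsgLib.SymplecticType.exists_central_mod P.2
    (A := A) (K := K) (fun v hv => center_le_cen x hv) hne
  replace htC : t ∈ cen x := htC
  replace htZ : t ∉ Subgroup.center G := htZ
  replace htp : t ^ p ∈ Subgroup.center G := htp
  replace htc : ∀ g ∈ (P : Subgroup G), g * t * g⁻¹ * t⁻¹ ∈ Subgroup.center G := fun g hg => htc ⟨g, hg⟩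
  have hcen : ∀ {w : G}, Commute w t → w ∈ cen x := fun h => D.sharp htC htZ ▸ mem_cen.2 h.eq
  refine ⟨t, htP, htC, htZ, htc, fun g hg hgx => ?_, fun g hg h hh => hcen ?_⟩
  · refine D.pow_central hgx (hcen ?_)
    have hc := htc g hg
    set c := g * t * g⁻¹ * t⁻¹ with hcdef
    have hgc : g * t * g⁻¹ = c * t := by rw [hcdef]; group
    have hc1 : c ^ p = 1 := by
      have h1 : (g * t * g⁻¹) ^ p = t ^ p := by
        rw [conj_pow, Subgroup.mem_center_iff.1 htp g, mul_inv_cancel_right]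
      rw [hgc, (show Commute c t from ((Subgroup.mem_center_iff.1 hc) t).symm).mul_pow] at h1
      exact mul_eq_right.1 h1
    have h2 := conj_pow_eq hgc (Subgroup.mem_center_iff.1 hc g) p
    rw [hc1, one_mul] at h2
    calc g ^ p * t = g ^ p * t * (g ^ p)⁻¹ * g ^ p := by group
      _ = t * g ^ p := by rw [h2]
  · have hc := Subgroup.mem_center_iff.1 (htc g hg)
    have hd := Subgroup.mem_center_iff.1 (htc h hh)
    set c := g * t * g⁻¹ * t⁻¹ with hcdef
    set d := h * t * h⁻¹ * t⁻¹ with hddef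
    have e1 : g * t * g⁻¹ = c * t := by rw [hcdef]; group
    have e2 : h * t * h⁻¹ = d * t := by rw [hddef]; group
    have e3 : h * g * t * g⁻¹ * h⁻¹ = c * (d * t) := by
      calc h * g * t * g⁻¹ * h⁻¹ = h * (g * t * g⁻¹) * h⁻¹ := by group
        _ = h * c * t * h⁻¹ := by rw [e1]; group
        _ = c * (h * t * h⁻¹) := by rw [hc h]; group
        _ = c * (d * t) := by rw [e2]
    have e4 : g * h * t * h⁻¹ * g⁻¹ = c * (d * t) := by
      calc g * h * t * h⁻¹ * g⁻¹ = g * (h * t * h⁻¹) * g⁻¹ := by group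
        _ = g * d * t * g⁻¹ := by rw [e2]; group
        _ = d * (g * t * g⁻¹) := by rw [hd g]; group
        _ = d * c * t := by rw [e1]; group
        _ = c * (d * t) := by rw [hc d]; group
    have e5 : g * h * g⁻¹ * h⁻¹ * (c * (d * t)) = c * (d * t) * (g * h * g⁻¹ * h⁻¹) := by
      calc g * h * g⁻¹ * h⁻¹ * (c * (d * t))
          = g * h * g⁻¹ * h⁻¹ * (h * g * t * g⁻¹ * h⁻¹) := by rw [e3]
        _ = g * h * t * h⁻¹ * g⁻¹ * (g * h * g⁻¹ * h⁻¹) := by group
        _ = c * (d * t) * (g * h * g⁻¹ * h⁻¹) := by rw [e4]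
    have hcd : ∀ w : G, w * (c * d) = c * d * w := fun w => by
      rw [← mul_assoc, hc w, mul_assoc, hd w, ← mul_assoc]
    refine mul_left_cancel (a := c * d) ?_
    calc c * d * (g * h * g⁻¹ * h⁻¹ * t) = g * h * g⁻¹ * h⁻¹ * (c * (d * t)) := by
          rw [← mul_assoc (c * d), ← hcd (g * h * g⁻¹ * h⁻¹)]; group
      _ = c * (d * t) * (g * h * g⁻¹ * h⁻¹) := e5
      _ = c * d * (t * (g * h * g⁻¹ * h⁻¹)) := by group

/-- Two elements of a Sylow subgroup are dependent modulo the centraliser. -/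
theorem exists_mul_pow_mem (P : Sylow p G) {g y : G} (hg : g ∈ (P : Subgroup G))
    (hy : y ∈ (P : Subgroup G)) (hyx : y ∉ cen x) : ∃ i : ℕ, g * y ^ i ∈ cen x := by
  haveI := Fact.mk D.prime
  by_contra hno
  push Not at hno
  obtain ⟨t, -, -, -, -, hpow, hcomm⟩ := D.sylow_mod P
  haveI := D.normal
  haveI hRn : (sPart (cen x) p).Normal := ⟨fun v hv k => by
    rw [D.nice.mem_sPart] at hv ⊢
    exact ⟨D.normal.conj_mem v hv.1 k, isPElt_conj hv.2 k⟩⟩
  haveI := D.cPart_normal
  set π := QuotientGroup.mk' (sPart (cen x) p) with hπ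
  haveI : ((cPart (cen x) p).map π).Normal :=
    Subgroup.Normal.map inferInstance π (QuotientGroup.mk'_surjective _)
  obtain ⟨r, hr, hrp, b, hb, hbr, hbZ⟩ := D.exists_other
  have hbH : b ∈ cPart (cen x) p := D.nice.mem_cPart.2 ⟨hb, coprime_of_pElt D.prime hr hrp hbr⟩
  have hA : IsMulCommutative ((P : Subgroup G).map π) := by
    refine ⟨⟨?_⟩⟩
    rintro ⟨_, a, ha, rfl⟩ ⟨_, c, hc, rfl⟩
    refine Subtype.ext ?_
    show π a * π c = π c * π a
    rw [← map_mul, ← map_mul]
    refine QuotientGroup.eq.2 ?_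
    have h1 := hcomm c⁻¹ (inv_mem hc) a⁻¹ (inv_mem ha)
    have h2 : c⁻¹ * a⁻¹ * c * a ∈ sPart (cen x) p := by
      refine D.nice.mem_sPart.2 ⟨by simpa using h1, isPElt_of_mem P.2 ?_⟩
      exact mul_mem (mul_mem (mul_mem (inv_mem hc) (inv_mem ha)) hc) ha
    have h3 : (a * c)⁻¹ * (c * a) = c⁻¹ * a⁻¹ * c * a := by group
    exact h3 ▸ h2
  have hcard : (Nat.card ((cPart (cen x) p).map π)).Coprime p :=
    Nat.Coprime.coprime_dvd_left (Subgroup.card_map_dvd _ _) D.nice.coprime_cPart
  haveI : IsMulCommutative (cPart (cen x) p) :=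
    ⟨⟨fun a c => Subtype.ext (D.commute (D.nice.mem_cPart.1 a.2).1 (D.nice.mem_cPart.1 c.2).1)⟩⟩
  have hkey : ∀ k : G, k ∉ cen x → ∀ v ∈ cPart (cen x) p, π k * π v = π v * π k →
      v ∈ Subgroup.center G := by
    intro k hk v hv he
    refine D.central_of_commute hk (D.nice.mem_cPart.1 hv).1 ?_
    rw [← map_mul, ← map_mul] at he
    have h1 : (v * k)⁻¹ * (k * v) ∈ sPart (cen x) p := QuotientGroup.eq.1 he.symm
    have h2 : (v * k)⁻¹ * (k * v) ∈ cPart (cen x) p := by
      have := mul_mem (D.cPart_normal.conj_mem v⁻¹ (inv_mem hv) k⁻¹) hv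
      rw [show (v * k)⁻¹ * (k * v) = k⁻¹ * v⁻¹ * k⁻¹⁻¹ * v by group]
      exact this
    have h3 := eq_one_of_pElt_coprime D.prime (D.nice.mem_sPart.1 h1).2 (D.nice.mem_cPart.1 h2).2
    exact (inv_mul_eq_one.1 h3).symm
  have hmain := CfsgLib.Coprime.le_of_lines_of_isSolvable (A := (P : Subgroup G).map π)
    (K := (Subgroup.center G).map π) hA (Subgroup.mem_map_of_mem π hg) (Subgroup.mem_map_of_mem π hy)
    (q := p) (G := (cPart (cen x) p).map π) ?_ ?_ ?_ ?_ ?_ ?_ ?_ ?_ (Subgroup.mem_map_of_mem π hbH)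
  · obtain ⟨z, hz, hzb⟩ := hmain
    have h1 := D.nice.mem_sPart.1 (QuotientGroup.eq.1 hzb)
    obtain ⟨k, hk⟩ := h1.2
    have h2 : b ^ p ^ k ∈ Subgroup.center G := by
      have hc : Commute z⁻¹ b := ((show Commute b z from Subgroup.mem_center_iff.1 hz b).inv_right).symm
      rw [hc.mul_pow, inv_pow, inv_mul_eq_one] at hk
      exact hk ▸ pow_mem hz _
    obtain ⟨j, hj⟩ := exists_pow_eq_self_of_coprime (x := b)
      ((coprime_of_pElt D.prime hr hrp hbr).pow_right k).symm
    exact hbZ (hj ▸ pow_mem h2 j)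
  · refine Group.isSolvable_of_comm ?_
    rintro ⟨_, a, ha, rfl⟩ ⟨_, c, hc, rfl⟩
    refine Subtype.ext ?_
    show π a * π c = π c * π a
    rw [← map_mul, ← map_mul, D.commute (D.nice.mem_cPart.1 ha).1 (D.nice.mem_cPart.1 hc).1]
  · rw [Subgroup.normalizer_eq_top_iff.2 (inferInstance : ((cPart (cen x) p).map π).Normal)]
    exact le_top
  · obtain ⟨k, hk⟩ := (P.2.map π).exists_card_eq
    rw [hk]
    exact hcard.symm.pow_left k
  · exact D.prime.coprime_iff_not_dvd.1 hcard.symm
  · rw [← map_pow]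
    refine Subgroup.mem_centralizer_iff.2 ?_
    rintro _ ⟨v, -, rfl⟩
    rw [← map_mul, ← map_mul, Subgroup.mem_center_iff.1 (hpow g hg (by simpa using hno 0)) v]
  · rw [← map_pow]
    refine Subgroup.mem_centralizer_iff.2 ?_
    rintro _ ⟨v, -, rfl⟩
    rw [← map_mul, ← map_mul, Subgroup.mem_center_iff.1 (hpow y hy hyx) v]
  · rintro i _ ⟨⟨v, hv, rfl⟩, hvc⟩
    refine Subgroup.mem_map_of_mem π (hkey _ (hno i) v hv ?_)
    rw [map_mul, map_pow]
    exact (Subgroup.mem_centralizer_singleton_iff.1 hvc).symm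
  · rintro _ ⟨⟨v, hv, rfl⟩, hvc⟩
    exact Subgroup.mem_map_of_mem π (hkey _ hyx v hv (Subgroup.mem_centralizer_singleton_iff.1 hvc).symm)

theorem fact_G : (Nat.card G).factorization p = (Nat.card (cen x)).factorization p + m.factorization p := by
  have := card_fact_add x p
  rw [D.idx_x] at this
  omega

theorem prime_eq : m = p ∧ ∀ P : Sylow p G, ∃ y ∈ (P : Subgroup G), y ∉ cen x ∧ y ^ p ∈ Subgroup.center G ∧
    ∀ g ∈ (P : Subgroup G), ∃ j : ℕ, g * (y ^ j)⁻¹ ∈ cen x := by
  classical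
  haveI := Fact.mk D.prime
  obtain ⟨e, he, hme⟩ := D.pow
  have hmp : m.factorization p = e := by rw [hme, D.prime.factorization_pow, Finsupp.single_eq_same]
  have hG := D.fact_G
  have key : ∀ P : Sylow p G, ∃ y ∈ (P : Subgroup G), y ∉ cen x ∧ y ^ p ∈ Subgroup.center G := by
    intro P
    by_contra hno
    push Not at hno
    obtain ⟨t, -, -, -, -, hpow, -⟩ := D.sylow_mod P
    have hle : (P : Subgroup G) ≤ cen x := fun g hg => by
      by_contra hgx
      exact hno g hg hgx (hpow g hg hgx)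
    have := fact_le_of_le hle p
    rw [P.card_eq_multiplicity, D.prime.factorization_pow, Finsupp.single_eq_same] at this
    omega
  have key2 : ∀ (P : Sylow p G) (y : G), y ∈ (P : Subgroup G) → y ∉ cen x → y ^ p ∈ Subgroup.center G →
      ∀ g ∈ (P : Subgroup G), ∃ j : ℕ, j < p ∧ g * (y ^ j)⁻¹ ∈ cen x := by
    intro P y hy hyx hyp g hg
    obtain ⟨i, hi⟩ := D.exists_mul_pow_mem P hg hy hyx
    set j := i * (p - 1) % p with hj
    refine ⟨j, Nat.mod_lt _ D.prime.pos, ?_⟩
    have e1 : y ^ (i + j) ∈ Subgroup.center G := by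
      obtain ⟨q, hq⟩ : p ∣ i + j := by
        have h1 : j ≡ i * (p - 1) [MOD p] := Nat.mod_modEq _ _
        refine Nat.modEq_zero_iff_dvd.1 ((h1.add_left i).trans (Nat.modEq_zero_iff_dvd.2 ⟨i, ?_⟩))
        obtain ⟨p', hp'⟩ := Nat.exists_eq_add_of_le D.prime.one_lt.le
        rw [hp', Nat.add_sub_cancel_left]
        ring
      rw [hq, pow_mul]
      exact pow_mem hyp q
    have e2 : g * (y ^ j)⁻¹ = g * y ^ i * (y ^ (i + j))⁻¹ := by rw [pow_add]; group
    rw [e2]
    exact mul_mem hi (inv_mem (center_le_cen x e1))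
  refine ⟨?_, fun P => ?_⟩
  · obtain ⟨P⟩ : Nonempty (Sylow p G) := inferInstance
    obtain ⟨y, hy, hyx, hyp⟩ := key P
    set R := (P : Subgroup G) ⊓ cen x with hR
    let f : R × Fin p → (P : Subgroup G) := fun z =>
      ⟨z.1 * y ^ (z.2 : ℕ), mul_mem z.1.2.1 (pow_mem hy _)⟩
    have hf : Function.Surjective f := by
      intro g
      obtain ⟨j, hjp, hj⟩ := key2 P y hy hyx hyp g g.2
      exact ⟨(⟨_, mul_mem g.2 ((P : Subgroup G).inv_mem (pow_mem hy j)), hj⟩, ⟨j, hjp⟩),
        Subtype.ext (inv_mul_cancel_right _ _)⟩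
    have h1 := Nat.card_le_card_of_surjective f hf
    rw [Nat.card_prod, Nat.card_fin, P.card_eq_multiplicity] at h1
    obtain ⟨a, ha⟩ := (P.2.to_le (inf_le_left : R ≤ _)).exists_card_eq
    have h2 := fact_le_of_le (inf_le_right : R ≤ cen x) p
    rw [ha, D.prime.factorization_pow, Finsupp.single_eq_same] at h2
    rw [ha, ← pow_succ, Nat.pow_le_pow_iff_right D.prime.one_lt] at h1
    have he1 : e = 1 := by omega
    rw [hme, he1, pow_one]
  · obtain ⟨y, hy, hyx, hyp⟩ := key P
    refine ⟨y, hy, hyx, hyp, fun g hg => ?_⟩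
    obtain ⟨j, -, hj⟩ := key2 P y hy hyx hyp g hg
    exact ⟨j, hj⟩

/-- The `p`-part of the centraliser is that of the centre times `p`. -/
theorem fact_cen : (Nat.card (cen x)).factorization p =
    (Nat.card (Subgroup.center G)).factorization p + 1 := by
  haveI := Fact.mk D.prime
  haveI := D.normal
  refine le_antisymm ?_ (center_fact_lt (center_le_cen x) (mem_cen.2 rfl) D.pElt D.not_central)
  obtain ⟨P⟩ : Nonempty (Sylow p G) := inferInstance
  obtain ⟨y, hy, hyx, -, -⟩ := D.prime_eq.2 P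
  have hyZ : y ∉ Subgroup.center G := fun h => hyx (center_le_cen x h)
  rw [D.hyp.cen_fact_eq D.prime D.dvd_m D.not_central hyZ]
  have h1 : Nat.card (cen x ⊓ cen y : Subgroup G) * (cen x).relIndex (cen y) = Nat.card (cen y) := by
    have h := Subgroup.relIndex_mul_relIndex ⊥ (cen x ⊓ cen y) (cen y) bot_le inf_le_right
    rwa [Subgroup.relIndex_bot_left, Subgroup.relIndex_bot_left, Subgroup.inf_relIndex_right] at h
  have hr0 : (cen x).relIndex (cen y) ≠ 0 := fun h => Nat.card_pos.ne' (by rw [← h1, h, mul_zero] :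
    Nat.card (cen y) = 0)
  have h2 : (cen x).relIndex (cen y) ∣ p := by
    have := Subgroup.relIndex_dvd_index_of_normal (cen x) (cen y)
    rwa [show (cen x).index = p from D.idx_x.trans D.prime_eq.1] at this
  have h3 := fact_le_of_le (show cen x ⊓ cen y ≤ Subgroup.center G from fun v hv =>
    D.central_of_commute hyx hv.1 (mem_cen.1 hv.2).symm) p
  rw [← h1, Nat.factorization_mul Nat.card_pos.ne' hr0, Finsupp.add_apply]
  have h4 := (Nat.factorization_le_iff_dvd hr0 D.prime.ne_zero).2 h2 p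
  rw [D.prime.factorization_self] at h4
  omega

theorem card_commutator (P : Sylow p G) : Nat.card (commutator (P : Subgroup G)) = p := by
  haveI := Fact.mk D.prime
  obtain ⟨t, htP, htC, htZ, htc, hpow, -⟩ := D.sylow_mod P
  obtain ⟨y, hy, hyx, hyp, hgen⟩ := D.prime_eq.2 P
  have hts : IsPElt p t := isPElt_of_mem P.2 htP
  have hc := htc y hy
  set ζ := y * t * y⁻¹ * t⁻¹ with hζ
  have hyt : y * t * y⁻¹ = ζ * t := by rw [hζ]; group
  have hζ1 : ζ ≠ 1 := fun h => by
    rw [h, one_mul] at hyt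
    refine hyx (D.sharp htC htZ ▸ mem_cen.2 ?_)
    calc y * t = y * t * y⁻¹ * y := by group
      _ = t * y := by rw [hyt]
  have hζp : ζ ^ p = 1 := by
    have h1 := conj_pow_eq hyt (Subgroup.mem_center_iff.1 hc y) p
    rw [← Subgroup.mem_center_iff.1 hyp t, mul_inv_cancel_right] at h1
    exact mul_eq_right.1 h1.symm
  have hord : orderOf ζ = p := orderOf_eq_prime hζp hζ1
  -- the elements of the Sylow subgroup
  have hform : ∀ g ∈ (P : Subgroup G), ∃ z ∈ Subgroup.center G, ∃ (i : ℤ) (j : ℕ), g = z * t ^ i * y ^ j := by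
    intro g hg
    obtain ⟨j, hj⟩ := hgen g hg
    have hP : g * (y ^ j)⁻¹ ∈ (P : Subgroup G) := mul_mem hg (inv_mem (pow_mem hy j))
    set L := Subgroup.center G ⊔ Subgroup.zpowers t with hL
    have hLC : L ≤ cen x := sup_le (center_le_cen x) (Subgroup.zpowers_le.2 htC)
    have hLf : (Nat.card L).factorization p = (Nat.card (cen x)).factorization p := by
      have h1 := center_fact_lt (K := L) le_sup_left (le_sup_right (a := Subgroup.center G)
        (Subgroup.mem_zpowers t)) hts htZ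
      have h2 := fact_le_of_le hLC p
      have h3 := D.fact_cen
      omega
    have hmem : g * (y ^ j)⁻¹ ∈ ((L : Subgroup G) : Set G) :=
      D.nice.le_of_fact hLC hLf hj (isPElt_of_mem P.2 hP)
    rw [hL, Subgroup.normal_mul] at hmem
    obtain ⟨z, hz, u, hu, hzu⟩ := Set.mem_mul.1 hmem
    obtain ⟨i, rfl⟩ := Subgroup.mem_zpowers_iff.1 hu
    exact ⟨z, hz, i, j, by rw [hzu, inv_mul_cancel_right]⟩
  haveI : (Subgroup.zpowers ζ).Normal := ⟨fun v hv g => by
    obtain ⟨k, rfl⟩ := Subgroup.mem_zpowers_iff.1 hv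
    rw [Subgroup.mem_center_iff.1 (zpow_mem hc k) g, mul_inv_cancel_right]
    exact Subgroup.zpow_mem_zpowers ζ k⟩
  set π := QuotientGroup.mk' (Subgroup.zpowers ζ) with hπ
  have hπc : Commute (π t) (π y) := by
    have h1 : π (y * t * y⁻¹) = π t := by
      rw [hyt, map_mul, show π ζ = 1 from (QuotientGroup.eq_one_iff ζ).2 (Subgroup.mem_zpowers ζ), one_mul]
    rw [map_mul, map_mul, map_inv, mul_inv_eq_iff_eq_mul] at h1
    exact h1.symm
  have hab : ∀ a ∈ (P : Subgroup G), ∀ b ∈ (P : Subgroup G), Commute (π a) (π b) := by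
    intro a ha b hb
    obtain ⟨z, hz, i, j, rfl⟩ := hform a ha
    obtain ⟨z', hz', i', j', rfl⟩ := hform b hb
    have hzc : ∀ w : G, ∀ z : G, z ∈ Subgroup.center G → Commute (π w) (π z) := fun w z hz =>
      (show Commute w z from Subgroup.mem_center_iff.1 hz w).map π
    simp only [map_mul, map_zpow, map_pow]
    refine Commute.mul_left (Commute.mul_left ((Commute.mul_right (Commute.mul_right ?_ ?_) ?_))
      (Commute.mul_right (Commute.mul_right ?_ ?_) ?_)) (Commute.mul_right (Commute.mul_right ?_ ?_) ?_)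
    · exact (hzc z' z hz).symm
    · exact ((hzc t z hz).symm.zpow_right i')
    · exact ((hzc y z hz).symm.pow_right j')
    · exact (hzc t z' hz').zpow_left i
    · exact (Commute.refl _).zpow_zpow i i'
    · exact (hπc.zpow_left i).pow_right j'
    · exact (hzc y z' hz').pow_left j
    · exact (hπc.symm.pow_left j).zpow_right i'
    · exact (Commute.refl _).pow_pow j j'
  rw [← Subgroup.card_map_of_injective (P : Subgroup G).subtype_injective,
    show (commutator (P : Subgroup G)).map (P : Subgroup G).subtype = Subgroup.zpowers ζ from ?_,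
    Nat.card_zpowers, hord]
  refine le_antisymm ?_ (Subgroup.zpowers_le.2 ?_)
  · rw [commutator_def, Subgroup.map_commutator, Subgroup.commutator_le]
    rintro _ ⟨a, -, rfl⟩ _ ⟨b, -, rfl⟩
    rw [← QuotientGroup.eq_one_iff, commutatorElement_def]
    show π _ = 1
    simp only [map_mul, map_inv, Subgroup.coe_subtype]
    rw [(hab _ a.2 _ b.2).eq, mul_inv_cancel_right, mul_inv_cancel]
  · refine ⟨(⟨y, hy⟩ : (P : Subgroup G)) * ⟨t, htP⟩ * ⟨y, hy⟩⁻¹ * ⟨t, htP⟩⁻¹, Subgroup.commutator_mem_commutator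
      (Subgroup.mem_top _) (Subgroup.mem_top _), ?_⟩
    simp [hζ]

/-- The normal `p`-complement and the congruence. -/
theorem complement : (Nat.card (cPart (cen x) p)).Coprime p ∧
    (∃ a : ℕ, (cPart (cen x) p).index = p ^ a) ∧ p ∣ n - 1 := by
  haveI := Fact.mk D.prime
  set N := cPart (cen x) p with hN
  have hNC : N ≤ cen x := fun v hv => (D.nice.mem_cPart.1 hv).1
  have hidx : N.index = p ^ ((Nat.card (cen x)).factorization p + 1) := by
    have h1 := D.nice.card_mul
    rw [D.nice.card_sPart] at h1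
    have h2 := N.card_mul_index
    have h3 := (cen x).card_mul_index
    rw [show (cen x).index = p from D.idx_x.trans D.prime_eq.1, ← h1, ← h2, mul_assoc,
      ← pow_succ] at h3
    exact (Nat.eq_of_mul_eq_mul_left Nat.card_pos h3).symm
  refine ⟨D.nice.coprime_cPart, ⟨_, hidx⟩, ?_⟩
  obtain ⟨P⟩ : Nonempty (Sylow p G) := inferInstance
  obtain ⟨y, hy, hyx, hyp, -⟩ := D.prime_eq.2 P
  haveI hNn := D.cPart_normal
  -- fixed points of `y` on the complement
  let σ : Function.End N := fun v => ⟨y * v * y⁻¹, hNn.conj_mem v v.2 y⟩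
  have hσk : ∀ (j : ℕ) (v : N), (((σ ^ j) v : N) : G) = y ^ j * v * (y ^ j)⁻¹ := by
    intro j
    induction j with
    | zero => intro v; rw [pow_zero, pow_zero, one_mul, inv_one, mul_one]; rfl
    | succ j ih =>
      intro v
      rw [pow_succ', pow_succ']
      show y * (((σ ^ j) v : N) : G) * y⁻¹ = _
      rw [ih]; group
  have hσ : σ ^ p ^ 1 = 1 := by
    funext v
    refine Subtype.ext ?_
    rw [pow_one, hσk, ← Subgroup.mem_center_iff.1 hyp (v : G), mul_inv_cancel_right]
    rfl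
  classical
  haveI := Fintype.ofFinite N
  have h1 := Equiv.Perm.card_fixedPoints_modEq (p := p) (f := σ) (n := 1) hσ
  rw [← Nat.card_eq_fintype_card, ← Nat.card_eq_fintype_card] at h1
  have hfp : Nat.card (Function.fixedPoints σ) = Nat.card (N ⊓ Subgroup.center G : Subgroup G) := by
    refine Nat.card_congr
      { toFun := fun v => ⟨v.1.1, v.1.2, D.central_of_commute hyx (hNC v.1.2) ?_⟩
        invFun := fun v => ⟨⟨v.1, v.2.1⟩, Subtype.ext ?_⟩
        left_inv := fun v => rfl
        right_inv := fun v => rfl }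
    · have e : y * (v.1 : G) * y⁻¹ = v.1 := congrArg Subtype.val v.2
      show y * (v.1 : G) = _
      calc y * (v.1 : G) = y * (v.1 : G) * y⁻¹ * y := by group
        _ = (v.1 : G) * y := by rw [e]
    · show y * v.1 * y⁻¹ = v.1
      rw [Subgroup.mem_center_iff.1 v.2.2 y, mul_inv_cancel_right]
  rw [hfp] at h1
  set Z' := N ⊓ Subgroup.center G with hZ'
  have hn0 := D.hyp.n_ne_zero
  have hpn : ¬ p ∣ n := fun h => D.prime.not_dvd_one (D.hyp.cop ▸ Nat.dvd_gcd D.dvd_m h)
  have hcard : Nat.card N = n * Nat.card Z' := by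
    refine Nat.eq_of_factorization_eq Nat.card_pos.ne' (Nat.mul_ne_zero hn0 Nat.card_pos.ne') fun r => ?_
    by_cases hr : r.Prime
    swap
    · simp [Nat.factorization_eq_zero_of_not_prime _ hr]
    rw [Nat.factorization_mul hn0 Nat.card_pos.ne', Finsupp.add_apply]
    by_cases hrp : r = p
    · rw [hrp, Nat.factorization_eq_zero_of_not_dvd hpn,
        Nat.factorization_eq_zero_of_not_dvd (D.prime.coprime_iff_not_dvd.1 D.nice.coprime_cPart.symm),
        Nat.factorization_eq_zero_of_not_dvd fun h =>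
          (D.prime.coprime_iff_not_dvd.1 D.nice.coprime_cPart.symm) (h.trans (Subgroup.card_dvd_of_le inf_le_left))]
    · have hpow0 : ∀ k, (p ^ k).factorization r = 0 := fun k => by
        rw [D.prime.factorization_pow, Finsupp.single_eq_of_ne hrp]
      have h2 : (Nat.card N).factorization r = (Nat.card G).factorization r := by
        rw [← N.card_mul_index, hidx, Nat.factorization_mul Nat.card_pos.ne' (pow_ne_zero _ D.prime.ne_zero),
          Finsupp.add_apply, hpow0, add_zero]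
      have h3 : (Nat.card Z').factorization r = (Nat.card (Subgroup.center G)).factorization r := by
        have h4 : Nat.card Z' * N.relIndex (Subgroup.center G) = Nat.card (Subgroup.center G) := by
          have h := Subgroup.relIndex_mul_relIndex ⊥ Z' (Subgroup.center G) bot_le inf_le_right
          rwa [Subgroup.relIndex_bot_left, Subgroup.relIndex_bot_left, hZ', Subgroup.inf_relIndex_right] at h
        have hr0 : N.relIndex (Subgroup.center G) ≠ 0 := fun h => Nat.card_pos.ne'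
          (by rw [← h4, h, mul_zero] : Nat.card (Subgroup.center G) = 0)
        have h5 := (Nat.factorization_le_iff_dvd hr0 (pow_ne_zero _ D.prime.ne_zero)).2
          (hidx ▸ Subgroup.relIndex_dvd_index_of_normal N (Subgroup.center G)) r
        rw [hpow0] at h5
        rw [← h4, Nat.factorization_mul Nat.card_pos.ne' hr0, Finsupp.add_apply]
        omega
      rw [h2, h3, D.fact_eq hr hrp, add_comm]
  rw [hcard] at h1
  have hcop : p.Coprime (Nat.card Z') :=
    (D.nice.coprime_cPart.coprime_dvd_left (Subgroup.card_dvd_of_le inf_le_left)).symm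
  have h2 : n ≡ 1 [MOD p] :=
    Nat.ModEq.cancel_right_of_coprime hcop (by rwa [one_mul])
  exact (Nat.modEq_iff_dvd' D.hyp.one_lt_n.le).1 h2.symm

theorem conclusion : m.Prime ∧ m ∣ n - 1 ∧
    (∃ M : Subgroup G, M.Normal ∧ (M : Set G) = {g : G | idx g = 1 ∨ idx g = m} ∧ M.index = m ∧
      IsMulCommutative M) ∧
    (∃ N : Subgroup G, N.Normal ∧ (Nat.card N).Coprime m ∧ ∃ a : ℕ, N.index = m ^ a) ∧
    ∀ P : Sylow m G, Nat.card (commutator (P : Subgroup G)) = m := by
  have hmp := D.prime_eq.1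
  subst hmp
  obtain ⟨h1, h2, h3⟩ := D.complement
  refine ⟨D.prime, h3, ⟨cen x, D.normal, ?_, D.idx_x, D.isMulCommutative⟩,
    ⟨_, D.cPart_normal, h1, h2⟩, D.card_commutator⟩
  ext g
  refine ⟨fun hg => ?_, fun hg => ?_⟩
  · by_cases hgZ : g ∈ Subgroup.center G
    · exact Or.inl ((idx_eq_one_iff g).2 hgZ)
    · exact Or.inr ((congrArg Subgroup.index (D.sharp hg hgZ)).trans D.idx_x)
  · rcases hg with hg | hg
    · exact center_le_cen x ((idx_eq_one_iff g).1 hg)
    · exact D.mem_of_idx_eq hg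

end HallHyp

end CfsgLib.RankTwoClass
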