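import Cfsg.Agent.RankTwoClass.Basic
import Cfsg.Agent.RankTwoClass.TwoPrimes
import Cfsg.Agent.RankTwoClass.CaseHall
import Cfsg.Agent.Chars.Apps.Burnside
import Cfsg.Agent.Constrained.Fitting
import Cfsg.Agent.LocalP.Basic
import Cfsg.Agent.TwoRegular.Local
import Cfsg.Agent.Eq.Def_Solvable
import Mathlib

/-!
Class sizes `1`, `m`, `m * n`: some `p`-element has class size `m` when `m` is a power of `p`.
-/

set_option autoImplicit false

namespace CfsgLib.RankTwoClass

open CfsgLib.TwoSizes (cen mem_cen IsPElt cen_mul_le center_le_cen cen_eq_top le_of_forall_pElt)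
open CfsgLib.CoprimeLargest (idx idx_ne_zero idx_eq_one_iff idx_conj cen_central_mul idx_dvd_of_le
  cen_eq_of_le_of_idx coprime_orderOf_of_pElt exists_prime_pElt_not_central factorization_le_center
  factorization_center_lt exists_pElt_factor)

variable {G : Type*} [Group G] [Finite G]

/-- All `p`-elements outside the centre have class size `m * n`. -/
structure PlainHyp (G : Type*) [Group G] (m n p : ℕ) : Prop where
  hyp : Hyp G m n
  prime : p.Prime
  pow : ∃ e : ℕ, 0 < e ∧ m = p ^ e
  div : ∀ r : ℕ, r.Prime → r ∣ Nat.card G → r ≠ p → r ∣ n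
  plain : ∀ w : G, IsPElt p w → w ∉ Subgroup.center G → idx w = m * n

namespace PlainHyp

variable {m n p : ℕ} (D : PlainHyp G m n p)
include D

omit [Finite G] in
theorem dvd_m : p ∣ m := by
  obtain ⟨e, he, rfl⟩ := D.pow
  exact dvd_pow_self p he.ne'

omit [Finite G] in
theorem fact_m {r : ℕ} (hrp : r ≠ p) : m.factorization r = 0 := by
  obtain ⟨e, -, rfl⟩ := D.pow
  rw [D.prime.factorization_pow, Finsupp.single_eq_of_ne hrp]

theorem fact_cen_of_m {r : ℕ} (hrp : r ≠ p) {g : G} (hg : idx g = m) :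
    (Nat.card (cen g)).factorization r = (Nat.card G).factorization r := by
  have := card_fact_add g r
  rw [hg, D.fact_m hrp, add_zero] at this
  exact this

theorem nice {w : G} (hw : IsPElt p w) (hwZ : w ∉ Subgroup.center G) : Nice (cen w) p :=
  D.hyp.nice_cen D.prime D.dvd_m hw hwZ

theorem cen_le {w b : G} (hw : IsPElt p w) (hwZ : w ∉ Subgroup.center G) (hb : b ∈ cen w)
    (hbp : (orderOf b).Coprime p) : cen w ≤ cen b := by
  have hcomm : Commute w b := (mem_cen.1 hb).symm
  have hcop := coprime_of_pElt_of_coprime D.prime hw hbp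
  have hle : cen (w * b) ≤ cen w := by rw [cen_mul_eq_inf hcomm hcop]; exact inf_le_left
  have hi := D.hyp.idx_eq_mn_of_le hle (D.plain w hw hwZ) (mul_not_central hcomm hcop hwZ)
  rw [← cen_eq_of_le_of_idx hle (hi.trans (D.plain w hw hwZ).symm).le, cen_mul_eq_inf hcomm hcop]
  exact inf_le_right

theorem cen_eq_of_mn {w b : G} (hw : IsPElt p w) (hwZ : w ∉ Subgroup.center G) (hb : b ∈ cen w)
    (hbp : (orderOf b).Coprime p) (hbi : idx b = m * n) : cen w = cen b :=
  cen_eq_of_le_of_idx (D.cen_le hw hwZ hb hbp) ((D.plain w hw hwZ).trans hbi.symm).le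

/-- Two commuting class size `m` elements with a common Sylow subgroup. -/
theorem eq_of_common {r : ℕ} (hr : r.Prime) (hrG : r ∣ Nat.card G) (hrp : r ≠ p) {b c : G}
    (hbc : Commute b c) (hcop : (orderOf b).Coprime (orderOf c)) (hb : idx b = m) (hc : idx c = m)
    {Q : Subgroup G} (hQ : Nat.card Q = r ^ (Nat.card G).factorization r) (hQb : Q ≤ cen b)
    (hQc : Q ≤ cen c) : cen b = cen c := by
  have hbZ := D.hyp.not_central_of_m hb
  have hf : (idx (b * c)).factorization r = 0 := by
    have h1 := card_fact_add (b * c) r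
    have h2 := fact_le_of_le (show Q ≤ cen (b * c) by
      rw [cen_mul_eq_inf hbc hcop]; exact le_inf hQb hQc) r
    rw [hQ, hr.factorization_pow, Finsupp.single_eq_same] at h2
    omega
  have hi : idx (b * c) = m := by
    refine (D.hyp.tri _ (mul_not_central hbc hcop hbZ)).resolve_right fun h => ?_
    rw [h] at hf
    have := hr.factorization_pos_of_dvd (Nat.mul_ne_zero D.hyp.m_ne_zero D.hyp.n_ne_zero)
      ((D.div r hr hrG hrp).mul_left m)
    omega
  rw [← cen_eq_of_le_of_idx (a := b * c) (b := b)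
      (by rw [cen_mul_eq_inf hbc hcop]; exact inf_le_left) (hi.trans hb.symm).le,
    cen_eq_of_le_of_idx (a := b * c) (b := c)
      (by rw [cen_mul_eq_inf hbc hcop]; exact inf_le_right) (hi.trans hc.symm).le]

/-- A prime with an element of class size `m`. -/
theorem exists_m_elt : ∃ (t : ℕ) (a : G), t.Prime ∧ t ≠ p ∧ t ∣ Nat.card G ∧ IsPElt t a ∧ idx a = m := by
  obtain ⟨g, hg⟩ := D.hyp.exists_m
  obtain ⟨q, v, hq, hvq, -, hvZ, hle⟩ := exists_pElt_factor (D.hyp.not_central_of_m hg)
  have hvm : idx v = m := by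
    refine (D.hyp.tri v hvZ).resolve_right fun h => ?_
    have h0 : m * n ∣ m := by rw [← h]; exact (idx_dvd_of_le hle).trans hg.dvd
    have h1 := Nat.le_of_dvd (by have := D.hyp.one_lt_m; omega) h0
    have := D.hyp.m_lt; omega
  refine ⟨q, v, hq, fun h => ?_, HallHyp.dvd_card_of_pElt hq hvq fun h => hvZ (h ▸ one_mem _), hvq, hvm⟩
  have h2 := D.plain v (h ▸ hvq) hvZ
  have := D.hyp.m_lt; omega

/-- All centralisers of `p`-elements meet the conjugates of an element of class size `m`. -/
theorem exists_m_mem {t : ℕ} (ht : t.Prime) (htp : t ≠ p) {a : G} (ha : IsPElt t a) (hai : idx a = m)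
    {w : G} (hw : IsPElt p w) (hwZ : w ∉ Subgroup.center G) :
    ∃ a' ∈ cen w, IsPElt t a' ∧ idx a' = m := by
  haveI := Fact.mk ht
  haveI := Fact.mk D.prime
  have haZ := D.hyp.not_central_of_m hai
  obtain ⟨w0, hw0, hw0p, hw0Z⟩ := D.hyp.exists_pElt D.prime D.dvd_m haZ
  have h1 := center_fact_lt (center_le_cen w0) (mem_cen.2 (mem_cen.1 hw0).symm) ha haZ
  have h2 := card_fact_add w0 t
  have h3 := card_fact_add w t
  rw [D.plain w0 hw0p hw0Z] at h2
  rw [D.plain w hw hwZ] at h3
  obtain ⟨b, hb, hbt, hbZ⟩ := exists_prime_pElt_not_central t (cen w) (by omega)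
  rcases D.hyp.tri b hbZ with hbi | hbi
  · exact ⟨b, hb, hbt, hbi⟩
  have heq := D.cen_eq_of_mn hw hwZ hb (coprime_of_pElt D.prime ht htp hbt) hbi
  obtain ⟨g, hg⟩ := exists_conj_sylow_le (K := cen a) (isPGroup_zpowers hbt) (D.fact_cen_of_m htp hai)
  refine ⟨g⁻¹ * a * g, ?_, by simpa using isPElt_conj ha g⁻¹, ?_⟩
  · rw [heq]
    have h4 := mem_cen.1 (hg b (Subgroup.mem_zpowers b))
    refine mem_cen.2 ?_
    calc g⁻¹ * a * g * b = g⁻¹ * (a * (g * b * g⁻¹)) * g := by group
      _ = g⁻¹ * (g * b * g⁻¹ * a) * g := by rw [h4]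
      _ = b * (g⁻¹ * a * g) := by group
  · have := idx_conj a g⁻¹
    rw [inv_inv] at this
    exact this.trans hai

/-- Class size `m` elements with a common Sylow subgroup of the group have one centraliser. -/
def Uniq (G : Type*) [Group G] (m t : ℕ) : Prop :=
  ∀ a a' : G, IsPElt t a → idx a = m → IsPElt t a' → idx a' = m →
    ∀ T : Subgroup G, Nat.card T = t ^ (Nat.card G).factorization t → IsPGroup t T →
      T ≤ cen a → T ≤ cen a' → cen a = cen a'

theorem exists_sylow {t : ℕ} [Fact t.Prime] (htp : t ≠ p) {a : G} (hai : idx a = m) :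
    ∃ T : Subgroup G, Nat.card T = t ^ (Nat.card G).factorization t ∧ IsPGroup t T ∧ T ≤ cen a := by
  obtain ⟨S⟩ : Nonempty (Sylow t (cen a)) := inferInstance
  refine ⟨(S : Subgroup (cen a)).map (cen a).subtype, ?_, S.2.map _, Subgroup.map_subtype_le _⟩
  rw [Subgroup.card_map_of_injective (cen a).subtype_injective, S.card_eq_multiplicity,
    D.fact_cen_of_m htp hai]

theorem not_uniq {t : ℕ} (ht : t.Prime) (htp : t ≠ p) {a : G} (ha : IsPElt t a) (hai : idx a = m)
    (hU : Uniq G m t) : False := by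
  haveI := Fact.mk ht
  have haZ := D.hyp.not_central_of_m hai
  have hne : cen a ≠ ⊤ := fun h => haZ (Subgroup.mem_center_iff.2 fun g =>
    mem_cen.1 (h.symm ▸ Subgroup.mem_top g : g ∈ cen a))
  refine hne (CfsgLib.ClassSizes.eq_top_of_conj_cover (cen a) fun g => ?_)
  by_cases hgZ : g ∈ Subgroup.center G
  · exact ⟨1, by simpa using center_le_cen a hgZ⟩
  obtain ⟨w, hw, hwp, hwZ⟩ := D.hyp.exists_pElt D.prime D.dvd_m hgZ
  obtain ⟨b, hb, hbt, hbi⟩ := D.exists_m_mem ht htp ha hai hwp hwZ
  have hgb : g ∈ cen b :=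
    D.cen_le hwp hwZ hb (coprime_of_pElt D.prime ht htp hbt) (mem_cen.2 (mem_cen.1 hw).symm)
  obtain ⟨T, hTc, hTt, hTb⟩ := D.exists_sylow (t := t) htp hbi
  obtain ⟨k, hk⟩ := exists_conj_sylow_le (K := cen a) hTt (D.fact_cen_of_m htp hai)
  have hT' : (T.map (MulAut.conj k).toMonoidHom) ≤ cen a := by
    rintro _ ⟨v, hv, rfl⟩
    exact hk v hv
  have heq : cen a = cen (k * b * k⁻¹) := by
    refine hU a _ ha hai (isPElt_conj hbt k) ((idx_conj b k).trans hbi) _ ?_ (hTt.map _) hT' ?_
    · rw [Subgroup.card_map_of_injective (f := (MulAut.conj k).toMonoidHom) (MulAut.conj k).injective, hTc]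
    · rw [cen_conj]
      exact Subgroup.map_mono hTb
  refine ⟨k⁻¹, ?_⟩
  rw [inv_inv, heq, cen_conj]
  exact ⟨g, hgb, rfl⟩

omit D in
theorem mem_of_sylow_le_cen {t : ℕ} [Fact t.Prime] {a : G} (ha : IsPElt t a) {T : Subgroup G}
    (hT : Nat.card T = t ^ (Nat.card G).factorization t) (hTt : IsPGroup t T) (hTa : T ≤ cen a) :
    a ∈ T := by
  have hn : T ≤ Subgroup.normalizer ((Subgroup.zpowers a : Subgroup G) : Set G) := by
    refine le_trans ?_ (Subgroup.centralizer_le_normalizer _)
    intro v hv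
    refine Subgroup.mem_centralizer_iff.2 fun c hc => ?_
    obtain ⟨i, rfl⟩ := Subgroup.mem_zpowers_iff.1 hc
    exact ((show Commute v a from mem_cen.1 (hTa hv)).zpow_right i).eq.symm
  have hp : IsPGroup t (T ⊔ Subgroup.zpowers a : Subgroup G) :=
    hTt.to_sup_of_normal_right' (isPGroup_zpowers ha) hn
  obtain ⟨S, hS⟩ := hp.exists_le_sylow
  have h := Subgroup.eq_of_le_of_card_ge (le_sup_left.trans hS)
    (le_of_eq (by rw [hT, S.card_eq_multiplicity]))
  exact h ▸ hS (le_sup_right (a := T) (Subgroup.mem_zpowers a))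

/-- A further prime with an element of class size `m`. -/
theorem uniq_of_third {t u : ℕ} (ht : t.Prime) (htG : t ∣ Nat.card G) (htp : t ≠ p) (hu : u.Prime)
    (hup : u ≠ p) (hut : u ≠ t) (huG : u ∣ Nat.card G) {c : G} (hc : IsPElt u c) (hci : idx c = m) :
    Uniq G m t := by
  haveI := Fact.mk ht
  haveI := Fact.mk hu
  intro a a' ha hai ha' ha'i T hT hTt hTa hTa'
  obtain ⟨U, hUc, hUu, hUle⟩ := D.exists_sylow (t := u) hup hci
  obtain ⟨k, hk⟩ := exists_conj_sylow_le (K := cen a) hUu (D.fact_cen_of_m hup hai)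
  set c' := k * c * k⁻¹
  have hc'u : IsPElt u c' := isPElt_conj hc k
  have hc'i : idx c' = m := (idx_conj c k).trans hci
  have hc'a : c' ∈ cen a := hk c (mem_of_sylow_le_cen hc hUc hUu hUle)
  have e1 : cen a = cen c' := by
    refine D.eq_of_common hu huG hup (Q := U.map (MulAut.conj k).toMonoidHom) (mem_cen.1 hc'a).symm
      (coprime_orderOf_of_pElt ht ha fun h => ?_) hai hc'i ?_ ?_ ?_
    · obtain ⟨j, hj⟩ := hc'u
      exact hut ((Nat.prime_dvd_prime_iff_eq ht hu).1
        (ht.dvd_of_dvd_pow (h.trans (orderOf_dvd_of_pow_eq_one hj)))).symm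
    · rw [Subgroup.card_map_of_injective (f := (MulAut.conj k).toMonoidHom) (MulAut.conj k).injective, hUc]
    · rintro _ ⟨v, hv, rfl⟩
      exact hk v hv
    · rw [cen_conj]
      exact Subgroup.map_mono hUle
  have hTc : T ≤ cen c' := e1 ▸ hTa
  have haT := mem_of_sylow_le_cen ha hT hTt hTa
  have ha'c : a' ∈ cen c' := e1 ▸ mem_cen.2 (mem_cen.1 (hTa' haT)).symm
  have e2 : cen a' = cen c' := by
    refine D.eq_of_common ht htG htp (Q := T) (mem_cen.1 ha'c)
      (coprime_orderOf_of_pElt ht ha' fun h => ?_) ha'i hc'i hT hTa' hTc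
    obtain ⟨j, hj⟩ := hc'u
    exact hut ((Nat.prime_dvd_prime_iff_eq ht hu).1
      (ht.dvd_of_dvd_pow (h.trans (orderOf_dvd_of_pow_eq_one hj)))).symm
  rw [e1, e2]

theorem false_of_third {u : ℕ} (hu : u.Prime) (hup : u ≠ p) (huG : u ∣ Nat.card G)
    (hno : ∀ c : G, IsPElt u c → idx c ≠ m) : False := by
  haveI := Fact.mk hu
  have hmn : ∀ c : G, IsPElt u c → c ∉ Subgroup.center G → idx c = m * n := fun c hc hcZ =>
    (D.hyp.tri c hcZ).resolve_left (hno c hc)
  obtain ⟨g', hg'⟩ := D.hyp.exists_mn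
  have hlt := factorization_center_lt hu (g := g') (hg' ▸ (D.div u hu huG hup).mul_left m)
  rw [← Subgroup.card_top (G := G)] at hlt
  obtain ⟨v, -, hvu, hvZ⟩ := exists_prime_pElt_not_central u ⊤ hlt
  obtain ⟨w1, hw1, hw1p, hw1Z⟩ := D.hyp.exists_pElt D.prime D.dvd_m hvZ
  have hlt1 := center_fact_lt (center_le_cen w1) (mem_cen.2 (mem_cen.1 hw1).symm) hvu hvZ
  have hpu : ∀ w : G, IsPElt p w → w ∉ Subgroup.center G →
      ∃ e ∈ cen w, IsPElt u e ∧ e ∉ Subgroup.center G := by
    intro w hw hwZ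
    refine exists_prime_pElt_not_central u (cen w) ?_
    have h2 := card_fact_add w1 u
    have h3 := card_fact_add w u
    rw [D.plain w1 hw1p hw1Z] at h2
    rw [D.plain w hw hwZ] at h3
    omega
  refine Pair.not_pair (G := G) (s := p) (u := u) ⟨D.prime, hu, hup.symm, fun h => hvZ (h ▸ Subgroup.mem_top v),
    ?_, fun g hg => D.hyp.exists_pElt D.prime D.dvd_m hg, ?_, ?_, ?_⟩
  · intro x w hx hxZ hw hwZ hxw
    exact D.cen_eq_of_mn hx hxZ (mem_cen.2 hxw.symm.eq) (coprime_of_pElt D.prime hu hup hw) (hmn w hw hwZ)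
  · intro g hg
    obtain ⟨w, hw, hwp, hwZ⟩ := D.hyp.exists_pElt D.prime D.dvd_m hg
    obtain ⟨e, he, heu, heZ⟩ := hpu w hwp hwZ
    refine ⟨e, mem_cen.2 ?_, heu, heZ⟩
    have h := D.cen_le hwp hwZ he (coprime_of_pElt D.prime hu hup heu) (mem_cen.2 (mem_cen.1 hw).symm)
    exact (mem_cen.1 h).symm
  · intro x y hx hxZ hy hyZ
    exact D.hyp.cen_fact_eq D.prime D.dvd_m hxZ hyZ
  · intro x y hx hxZ hy hyZ
    have h2 := card_fact_add x u
    have h3 := card_fact_add y u
    rw [hmn x hx hxZ] at h2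
    rw [hmn y hy hyZ] at h3
    omega

section TwoPrimeGroup

variable {t : ℕ} [ht : Fact t.Prime] (htp : t ≠ p)
  (hprimes : ∀ r : ℕ, r.Prime → r ∣ Nat.card G → r = p ∨ r = t)
include htp hprimes

omit [Finite G] ht htp in
theorem cPart_isPGroup {K : Subgroup G} [Finite G] (hK : (Nat.card (cPart K p)).Coprime p) :
    ∀ r : ℕ, r.Prime → r ∣ Nat.card (cPart K p) → r = t := fun r hr hd =>
  (hprimes r hr (hd.trans (Subgroup.card_subgroup_dvd_card _))).resolve_left fun h =>
    D.prime.coprime_iff_not_dvd.1 hK.symm (h ▸ hd)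

/-- The `p'`-part of the centraliser of a `p`-element is a `t`-group of constant order. -/
theorem cPart_card {w : G} (hw : IsPElt p w) (hwZ : w ∉ Subgroup.center G) :
    Nat.card (cPart (cen w) p) = t ^ (Nat.card (cen w)).factorization t := by
  haveI := Fact.mk D.prime
  have hN := D.nice hw hwZ
  refine Nat.eq_of_factorization_eq Nat.card_pos.ne' (pow_ne_zero _ ht.out.ne_zero) fun r => ?_
  rw [ht.out.factorization_pow]
  by_cases hrt : r = t
  · subst hrt
    rw [Finsupp.single_eq_same, ← hN.card_mul, hN.card_sPart,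
      Nat.factorization_mul Nat.card_pos.ne' (pow_ne_zero _ D.prime.ne_zero), Finsupp.add_apply,
      D.prime.factorization_pow, Finsupp.single_eq_of_ne htp, add_zero]
  · rw [Finsupp.single_eq_of_ne hrt]
    by_cases hr : r.Prime
    · exact Nat.factorization_eq_zero_of_not_dvd fun h => hrt (D.cPart_isPGroup hprimes hN.coprime_cPart r hr h)
    · exact Nat.factorization_eq_zero_of_not_prime _ hr

theorem cPart_card_eq {v w : G} (hv : IsPElt p v) (hvZ : v ∉ Subgroup.center G) (hw : IsPElt p w)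
    (hwZ : w ∉ Subgroup.center G) : Nat.card (cPart (cen v) p) = Nat.card (cPart (cen w) p) := by
  rw [D.cPart_card htp hprimes hv hvZ, D.cPart_card htp hprimes hw hwZ]
  have h2 := card_fact_add v t
  have h3 := card_fact_add w t
  rw [D.plain v hv hvZ] at h2
  rw [D.plain w hw hwZ] at h3
  rw [show (Nat.card (cen v)).factorization t = (Nat.card (cen w)).factorization t by omega]

/-- For an element central modulo the centre in a Sylow subgroup the `p'`-part lies in the core. -/
theorem cPart_le_core (P : Sylow p G) {x : G} (hxP : x ∈ (P : Subgroup G))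
    (hxZ : x ∉ Subgroup.center G) (hxc : ∀ g ∈ (P : Subgroup G), g * x * g⁻¹ * x⁻¹ ∈ Subgroup.center G) :
    cPart (cen x) p ≤ Cfsg.pCore t G := by
  haveI := Fact.mk D.prime
  have hx : IsPElt p x := isPElt_of_mem P.2 hxP
  have hN := D.nice hx hxZ
  set A := cPart (cen x) p
  have hAt : IsPGroup t A := IsPGroup.of_card (D.cPart_card htp hprimes hx hxZ)
  have hPA : ∀ g ∈ (P : Subgroup G), ∀ v ∈ A, g * v * g⁻¹ ∈ A := by
    intro g hg v hv
    rw [hN.mem_cPart] at hv ⊢
    refine ⟨?_, ?_⟩
    · have h1 : cen (g * x * g⁻¹) = cen x := by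
        conv_lhs => rw [show g * x * g⁻¹ = g * x * g⁻¹ * x⁻¹ * x by group]
        exact cen_central_mul (hxc g hg)
      rw [← h1, cen_conj]
      exact ⟨v, hv.1, rfl⟩
    · rw [show g * v * g⁻¹ = MulAut.conj g v from rfl, MulEquiv.orderOf_eq]
      exact hv.2
  obtain ⟨T, hT⟩ := hAt.exists_le_sylow
  have hcompl : Subgroup.IsComplement' (T : Subgroup G) (P : Subgroup G) := by
    refine Subgroup.isComplement'_of_coprime ?_ ?_
    · refine Nat.eq_of_factorization_eq (Nat.mul_ne_zero Nat.card_pos.ne' Nat.card_pos.ne') Nat.card_pos.ne'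
        fun r => ?_
      rw [T.card_eq_multiplicity, P.card_eq_multiplicity,
        Nat.factorization_mul (pow_ne_zero _ ht.out.ne_zero) (pow_ne_zero _ D.prime.ne_zero),
        Finsupp.add_apply, ht.out.factorization_pow, D.prime.factorization_pow]
      by_cases hrt : r = t
      · subst hrt
        rw [Finsupp.single_eq_same, Finsupp.single_eq_of_ne htp, add_zero]
      by_cases hrp : r = p
      · subst hrp
        rw [Finsupp.single_eq_of_ne hrt, Finsupp.single_eq_same, zero_add]
      rw [Finsupp.single_eq_of_ne hrt, Finsupp.single_eq_of_ne hrp]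
      by_cases hr : r.Prime
      · rw [Nat.factorization_eq_zero_of_not_dvd fun h => (hprimes r hr h).elim hrp hrt]; rfl
      · rw [Nat.factorization_eq_zero_of_not_prime _ hr]; rfl
    · exact IsPGroup.coprime_card_of_ne t p htp _ _ T.2 P.2
  have hle : Subgroup.normalClosure (A : Set G) ≤ (T : Subgroup G) := by
    refine (Subgroup.closure_le _).2 fun v hv => ?_
    obtain ⟨a, ha, hav⟩ := Group.mem_conjugatesOfSet_iff.1 hv
    obtain ⟨c, hc⟩ := isConj_iff.1 hav
    obtain ⟨⟨⟨τ, hτ⟩, ⟨π, hπ⟩⟩, hc'⟩ := hcompl.2 c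
    have hc'' : τ * π = c := hc'
    rw [← hc, ← hc'', show τ * π * a * (τ * π)⁻¹ = τ * (π * a * π⁻¹) * τ⁻¹ by group]
    exact mul_mem (mul_mem hτ (hT (hPA π hπ a ha))) (inv_mem hτ)
  exact Subgroup.subset_normalClosure.trans (CfsgLib.LocalP.le_pCore Subgroup.normalClosure_normal (T.2.to_le hle))

/-- All elements of class size `m` commute with one `p`-element. -/
theorem uniq_of_commute {x : G} (hx : IsPElt p x) (hxZ : x ∉ Subgroup.center G)
    (hall : ∀ a : G, IsPElt t a → idx a = m → a ∈ cen x) : Uniq G m t := by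
  haveI := Fact.mk D.prime
  intro a a' ha hai ha' ha'i T hT hTt hTa hTa'
  have hN := D.nice hx hxZ
  have hR : ∀ {b : G}, IsPElt t b → idx b = m → sPart (cen x) p ≤ cen b := fun {b} hb hbi v hv => by
    rw [hN.mem_sPart] at hv
    exact mem_cen.2 (hN.commute hv.1 (hall b hb hbi) hv.2 (coprime_of_pElt D.prime ht.out htp hb)).symm.eq
  have haZ := D.hyp.not_central_of_m hai
  have key : Nat.card (cen a) ≤ Nat.card (cen a ⊓ cen a' : Subgroup G) := by
    refine Nat.le_of_dvd Nat.card_pos ((Nat.factorization_le_iff_dvd Nat.card_pos.ne' Nat.card_pos.ne').1 ?_)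
    intro r
    by_cases hr : r.Prime
    swap
    · simp [Nat.factorization_eq_zero_of_not_prime _ hr]
    by_cases hrG : r ∣ Nat.card G
    · rcases hprimes r hr hrG with h | h
      · subst h
        have h1 := fact_le_of_le (le_inf (hR ha hai) (hR ha' ha'i)) r
        rw [hN.card_sPart, hr.factorization_pow, Finsupp.single_eq_same] at h1
        exact (D.hyp.cen_fact_eq hr D.dvd_m haZ hxZ).le.trans h1
      · subst h
        have h1 := fact_le_of_le (le_inf hTa hTa') r
        rw [hT, hr.factorization_pow, Finsupp.single_eq_same] at h1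
        exact (fact_le_of_le (le_top : cen a ≤ ⊤) r).trans (by rwa [Subgroup.card_top])
    · rw [Nat.factorization_eq_zero_of_not_dvd fun h => hrG (h.trans (Subgroup.card_subgroup_dvd_card _))]
      exact Nat.zero_le _
  have h := Subgroup.eq_of_le_of_card_ge (inf_le_left : cen a ⊓ cen a' ≤ cen a) key
  exact cen_eq_of_le_of_idx (h ▸ inf_le_right) (hai.trans ha'i.symm).le

/-- All elements of class size `m` commute with one `p`-element. -/
theorem exists_commute (hsol : Group.IsSolvable G) {a0 : G} (ha0 : IsPElt t a0) (ha0i : idx a0 = m) :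
    ∃ x : G, IsPElt p x ∧ x ∉ Subgroup.center G ∧ ∀ a : G, IsPElt t a → idx a = m → a ∈ cen x := by
  haveI := Fact.mk D.prime
  haveI := hsol
  set O := Cfsg.pCore t G with hOdef
  have hOn : O.Normal := by infer_instance
  have hOt : IsPGroup t O := CfsgLib.LocalP.isPGroup_pCore
  have hcopp : ∀ v : G, IsPElt t v → (orderOf v).Coprime p := fun v hv =>
    coprime_of_pElt D.prime ht.out htp hv
  by_cases hOp : Cfsg.pCore p G ≤ Subgroup.center G
  swap
  · -- a noncentral `p`-core
    set V := Cfsg.pCore p G with hVdef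
    have hVn : V.Normal := by infer_instance
    have hVp : IsPGroup p V := CfsgLib.LocalP.isPGroup_pCore
    have hVO : ∀ v ∈ V, O ≤ cen v := by
      intro v hv o ho
      have h1 : o * v * o⁻¹ * v⁻¹ ∈ V := mul_mem (hVn.conj_mem v hv o) (inv_mem hv)
      have h2 : o * v * o⁻¹ * v⁻¹ ∈ O := by
        rw [show o * v * o⁻¹ * v⁻¹ = o * (v * o⁻¹ * v⁻¹) by group]
        exact mul_mem ho (hOn.conj_mem _ (inv_mem ho) v)
      have h3 := eq_one_of_pElt_coprime D.prime (isPElt_of_mem hVp h1) (hcopp _ (isPElt_of_mem hOt h2))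
      exact mem_cen.2 (eq_of_mul_inv_eq_one (by simpa [mul_assoc] using h3))
    have hex : ∀ P : Sylow p G, ∃ x ∈ V, x ∉ Subgroup.center G ∧
        ∀ g ∈ (P : Subgroup G), g * x * g⁻¹ * x⁻¹ ∈ Subgroup.center G := by
      intro P
      obtain ⟨x, hxV, hxZ, hxc⟩ := CfsgLib.TwoRegular.exists_central_mod (L := Subgroup.center G) P.2
        (hVp.le_sylow_of_normal P) (fun g _ v hv => hVn.conj_mem v hv g)
        (fun g _ l hl => (inferInstance : (Subgroup.center G).Normal).conj_mem l hl g) hOp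
      exact ⟨x, hxV, hxZ, fun g hg => by simpa [commutatorElement_def] using hxc g hg⟩
    have hOeq : ∀ v ∈ V, v ∉ Subgroup.center G → cPart (cen v) p = O := by
      intro v hv hvZ
      obtain ⟨P⟩ : Nonempty (Sylow p G) := inferInstance
      obtain ⟨x, hxV, hxZ, hxc⟩ := hex P
      have hxp := isPElt_of_mem hVp hxV
      have hvp := isPElt_of_mem hVp hv
      have h1 := D.cPart_le_core htp hprimes P (hVp.le_sylow_of_normal P hxV) hxZ hxc
      have h2 : O ≤ cPart (cen v) p := fun o ho =>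
        (D.nice hvp hvZ).mem_cPart.2 ⟨hVO v hv ho, hcopp o (isPElt_of_mem hOt ho)⟩
      refine (Subgroup.eq_of_le_of_card_ge h2 ?_).symm
      rw [D.cPart_card_eq htp hprimes hvp hvZ hxp hxZ]
      exact Subgroup.card_le_of_le h1
    obtain ⟨P0⟩ : Nonempty (Sylow p G) := inferInstance
    obtain ⟨x0, hx0V, hx0Z, -⟩ := hex P0
    refine ⟨x0, isPElt_of_mem hVp hx0V, hx0Z, fun a ha hai => ?_⟩
    refine hVO x0 hx0V ?_
    have haZ := D.hyp.not_central_of_m hai
    obtain ⟨w, hw, hwp, hwZ⟩ := D.hyp.exists_pElt D.prime D.dvd_m haZ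
    obtain ⟨P, hP⟩ := (isPGroup_zpowers hwp).exists_le_sylow
    obtain ⟨x, hxV, hxZ, hxc⟩ := hex P
    have hxp := isPElt_of_mem hVp hxV
    set e := a * x * a⁻¹ * x⁻¹ with he
    have heV : e ∈ V := mul_mem (hVn.conj_mem x hxV a) (inv_mem hxV)
    have hec : e ∈ cen w := by
      refine mem_cen.2 ?_
      have hc := hxc w (hP (Subgroup.mem_zpowers w))
      set c := w * x * w⁻¹ * x⁻¹ with hcdef
      have hwx : w * x * w⁻¹ = c * x := by rw [hcdef]; group
      have hcc : ∀ u : G, u * c = c * u := Subgroup.mem_center_iff.1 hc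
      have hwa : w * a * w⁻¹ = a := by rw [mem_cen.1 hw, mul_inv_cancel_right]
      have h2 : w * e * w⁻¹ = e := by
        calc w * e * w⁻¹
            = (w * a * w⁻¹) * (w * x * w⁻¹) * (w * a * w⁻¹)⁻¹ * (w * x * w⁻¹)⁻¹ := by rw [he]; group
          _ = a * c * x * a⁻¹ * (c * x)⁻¹ := by rw [hwa, hwx]; group
          _ = c * a * x * a⁻¹ * x⁻¹ * c⁻¹ := by rw [hcc a]; group
          _ = e := by
            rw [show c * a * x * a⁻¹ * x⁻¹ * c⁻¹ = c * e * c⁻¹ by rw [he]; group, ← hcc e,
              mul_inv_cancel_right]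
      calc e * w = w * e * w⁻¹ * w := by rw [h2]
        _ = w * e := by group
    by_cases heZ : e ∈ Subgroup.center G
    · have h1 := eq_one_of_conj_eq (a := a) (v := x) (c := e) (by rw [he]; group)
        (Subgroup.mem_center_iff.1 heZ a)
        (coprime_of_pElt_of_coprime D.prime (isPElt_of_mem hVp heV) (hcopp a ha))
      have h2 : a * x * a⁻¹ = x := mul_inv_eq_one.1 h1
      have hax : a ∈ cen x := mem_cen.2 (by
        calc a * x = a * x * a⁻¹ * a := by group
          _ = x * a := by rw [h2])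
      rw [← hOeq x hxV hxZ]
      exact (D.nice hxp hxZ).mem_cPart.2 ⟨hax, hcopp a ha⟩
    · have hep := isPElt_of_mem hVp heV
      rw [← hOeq e heV heZ]
      refine (D.nice hep heZ).mem_cPart.2 ⟨mem_cen.2 ?_, hcopp a ha⟩
      exact ((D.nice hwp hwZ).commute hec (mem_cen.2 (mem_cen.1 hw).symm) hep (hcopp a ha)).eq
  · -- a central `p`-core
    have hselfO : ∀ c : G, (∀ o ∈ O, o * c = c * o) → c ∈ O ⊔ Subgroup.center G := by
      intro c hc
      have hF : Cfsg.fittingSubgroup G ≤ O ⊔ Subgroup.center G := by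
        rw [CfsgLib.Constrained.fitting_eq_iSup_pCore]
        refine iSup₂_le fun q hq => ?_
        haveI := Fact.mk hq
        by_cases hqG : q ∣ Nat.card G
        · rcases hprimes q hq hqG with h | h
          · subst h; exact hOp.trans le_sup_right
          · subst h; exact le_sup_left
        · intro v hv
          obtain ⟨k, hk⟩ := (CfsgLib.LocalP.isPGroup_pCore (p := q) (G := G)) ⟨v, hv⟩
          have h1 : IsPElt q v := ⟨k, congrArg Subtype.val hk⟩
          have h2 : v = 1 := by
            by_contra h3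
            exact hqG (HallHyp.dvd_card_of_pElt hq h1 h3)
          exact h2 ▸ one_mem _
      refine hF (CfsgLib.Constrained.centralizer_fitting_le ?_)
      refine Subgroup.mem_centralizer_iff.2 fun f hf => ?_
      obtain ⟨o, ho, z, hz, rfl⟩ : ∃ o ∈ O, ∃ z ∈ Subgroup.center G, o * z = f := by
        have h := hF hf
        rwa [← SetLike.mem_coe, Subgroup.normal_mul, Set.mem_mul] at h
      rw [mul_assoc, ← Subgroup.mem_center_iff.1 hz c, ← mul_assoc, hc o ho, mul_assoc]
    set A0 := O ⊓ Subgroup.centralizer (O : Set G) with hA0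
    have hA0c : ∀ u ∈ A0, ∀ v ∈ A0, u * v = v * u := fun u hu v hv =>
      Subgroup.mem_centralizer_iff.1 hv.2 u hu.1
    have hA0n : A0.Normal := by infer_instance
    have hmA0 : ∀ a : G, IsPElt t a → idx a = m → a ∈ A0 := by
      intro a ha hai
      obtain ⟨T, hTc, hTt, hTa⟩ := D.exists_sylow (t := t) htp hai
      have hOT : O ≤ T := by
        obtain ⟨S, hS⟩ := hTt.exists_le_sylow
        have h := Subgroup.eq_of_le_of_card_ge hS (le_of_eq (by rw [hTc, S.card_eq_multiplicity]))
        exact h ▸ hOt.le_sylow_of_normal S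
      have hac : ∀ o ∈ O, o * a = a * o := fun o ho => mem_cen.1 (hTa (hOT ho))
      obtain ⟨o, ho, z, hz, hoz⟩ : ∃ o ∈ O, ∃ z ∈ Subgroup.center G, o * z = a := by
        have h := hselfO a hac
        rwa [← SetLike.mem_coe, Subgroup.normal_mul, Set.mem_mul] at h
      have hzt : IsPElt t z := by
        have hz' : z = o⁻¹ * a := by rw [← hoz, inv_mul_cancel_left]
        rw [hz']
        exact isPElt_mul (Commute.inv_left (hac o ho)) (isPElt_inv (isPElt_of_mem hOt ho)) ha
      haveI : (Subgroup.zpowers z).Normal := ⟨fun v hv g => by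
        obtain ⟨i, rfl⟩ := Subgroup.mem_zpowers_iff.1 hv
        rw [Subgroup.mem_center_iff.1 (zpow_mem hz i) g, mul_inv_cancel_right]
        exact Subgroup.zpow_mem_zpowers z i⟩
      have hzO : z ∈ O :=
        CfsgLib.LocalP.le_pCore inferInstance (isPGroup_zpowers hzt) (Subgroup.mem_zpowers z)
      exact ⟨hoz ▸ mul_mem ho hzO, Subgroup.mem_centralizer_iff.2 hac⟩
    obtain ⟨P⟩ : Nonempty (Sylow p G) := inferInstance
    have hPne : ¬ (P : Subgroup G) ≤ Subgroup.center G := fun h => by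
      obtain ⟨g', hg'⟩ := D.hyp.exists_mn
      have h1 := factorization_center_lt D.prime (g := g') (hg' ▸ D.dvd_m.mul_right n)
      have h2 := fact_le_of_le h p
      rw [P.card_eq_multiplicity, D.prime.factorization_pow, Finsupp.single_eq_same] at h2
      omega
    obtain ⟨x, hxP, hxZ, hxc⟩ := CfsgLib.TwoRegular.exists_central_mod (L := Subgroup.center G) P.2
      (le_refl (P : Subgroup G)) (fun g hg v hv => mul_mem (mul_mem hg hv) (inv_mem hg))
      (fun g _ l hl => (inferInstance : (Subgroup.center G).Normal).conj_mem l hl g) hPne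
    replace hxc : ∀ g ∈ (P : Subgroup G), g * x * g⁻¹ * x⁻¹ ∈ Subgroup.center G := fun g hg => by
      simpa [commutatorElement_def] using hxc g hg
    have hxp : IsPElt p x := isPElt_of_mem P.2 hxP
    obtain ⟨a', ha'x, ha't, ha'i⟩ := D.exists_m_mem ht.out htp ha0 ha0i hxp hxZ
    have ha'A := hmA0 a' ha't ha'i
    have ha'Z := D.hyp.not_central_of_m ha'i
    -- Sylow `p`-intersections with centralisers of elements of `A0`
    set c := (Nat.card (cen x)).factorization p with hcdef
    have hS : ∀ v ∈ A0, v ∉ Subgroup.center G →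
        Nat.card ((P : Subgroup G) ⊓ cen v : Subgroup G) = p ^ c := by
      intro v hv hvZ
      have hvt : IsPElt t v := isPElt_of_mem hOt hv.1
      have hvi : idx v = m := by
        refine (D.hyp.tri v hvZ).resolve_right fun h => ?_
        obtain ⟨w, hw, hwp, hwZ⟩ := D.hyp.exists_pElt D.prime D.dvd_m hvZ
        have heq := D.cen_eq_of_mn hwp hwZ (mem_cen.2 (mem_cen.1 hw).symm) (hcopp v hvt) h
        have hwO : ∀ o ∈ O, o * w = w * o := fun o ho => by
          refine mem_cen.1 ?_
          rw [heq]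
          exact mem_cen.2 (Subgroup.mem_centralizer_iff.1 hv.2 o ho)
        have h1 := hselfO w hwO
        obtain ⟨o, ho, z, hz, hoz⟩ : ∃ o ∈ O, ∃ z ∈ Subgroup.center G, o * z = w := by
          rwa [← SetLike.mem_coe, Subgroup.normal_mul, Set.mem_mul] at h1
        obtain ⟨k, hk⟩ := hwp
        have hoZ : o ^ p ^ k ∈ Subgroup.center G := by
          have h2 : o ^ p ^ k * z ^ p ^ k = 1 := by
            rw [← (show Commute o z from Subgroup.mem_center_iff.1 hz o).mul_pow, hoz, hk]
          exact (mul_eq_one_iff_eq_inv.1 h2) ▸ inv_mem (pow_mem hz _)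
        obtain ⟨j, hj⟩ := exists_pow_eq_self_of_coprime (x := o)
          ((hcopp o (isPElt_of_mem hOt ho)).pow_right k).symm
        exact hwZ (hoz ▸ mul_mem (hj ▸ pow_mem hoZ j) hz)
      obtain ⟨k, hk⟩ := (P.2.to_le (inf_le_left : (P : Subgroup G) ⊓ cen v ≤ _)).exists_card_eq
      have h1 := fact_le_of_le (inf_le_right : (P : Subgroup G) ⊓ cen v ≤ cen v) p
      rw [hk, D.prime.factorization_pow, Finsupp.single_eq_same,
        D.hyp.cen_fact_eq D.prime D.dvd_m hvZ hxZ] at h1
      have h2 : Nat.card ((P : Subgroup G) ⊓ cen v : Subgroup G) * (P : Subgroup G).relIndex (cen v) =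
          Nat.card (cen v) := by
        have h := Subgroup.relIndex_mul_relIndex ⊥ ((P : Subgroup G) ⊓ cen v) (cen v) bot_le inf_le_right
        rwa [Subgroup.relIndex_bot_left, Subgroup.relIndex_bot_left, Subgroup.inf_relIndex_right] at h
      have h3 : (P : Subgroup G).relIndex (cen v) ≤ (P : Subgroup G).index := by
        rw [← Subgroup.relIndex_top_right]
        exact Subgroup.relIndex_le_of_le_right le_top (by
          rw [Subgroup.relIndex_top_right]; exact Subgroup.index_ne_zero_of_finite)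
      have h4 : Nat.card (cen v) = p ^ c * (P : Subgroup G).index := by
        have h5 : (P : Subgroup G).index * p ^ (Nat.card G).factorization p = Nat.card G := by
          rw [← P.card_eq_multiplicity, mul_comm, Subgroup.card_mul_index]
        have h6 : Nat.card (cen v) * m = Nat.card G := by
          rw [← hvi]; exact Subgroup.card_mul_index _
        have h7 := card_fact_add v p
        rw [hvi, D.hyp.cen_fact_eq D.prime D.dvd_m hvZ hxZ, ← hcdef] at h7
        obtain ⟨e, -, hme⟩ := D.pow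
        rw [hme, D.prime.factorization_pow, Finsupp.single_eq_same] at h7
        refine Nat.eq_of_mul_eq_mul_right (Nat.pos_of_ne_zero D.hyp.m_ne_zero) ?_
        rw [h6, hme, ← h5, ← h7, pow_add]
        ring
      rw [hk] at h2 ⊢
      refine le_antisymm (Nat.pow_le_pow_right D.prime.pos h1) ?_
      refine Nat.le_of_mul_le_mul_right ?_ (Nat.pos_of_ne_zero (Subgroup.index_ne_zero_of_finite (H := (P : Subgroup G))))
      rw [← h4, ← h2]
      exact Nat.mul_le_mul_left _ h3
    refine ⟨x, hxp, hxZ, fun b hbt hbi => ?_⟩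
    have hbA := hmA0 b hbt hbi
    have hbZ := D.hyp.not_central_of_m hbi
    set e := x * b * x⁻¹ * b⁻¹ with he
    have heA : e ∈ A0 := mul_mem (hA0n.conj_mem b hbA x) (inv_mem hbA)
    by_cases heZ : e ∈ Subgroup.center G
    · have h1 := eq_one_of_conj_eq (a := x) (v := b) (c := e) (by rw [he]; group)
        (Subgroup.mem_center_iff.1 heZ x)
        (coprime_of_pElt_of_coprime D.prime hxp (hcopp e (isPElt_of_mem hOt heA.1))).symm
      have h2 : x * b * x⁻¹ = b := mul_inv_eq_one.1 h1
      refine mem_cen.2 ?_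
      calc b * x = x * b * x⁻¹ * x := by rw [h2]
        _ = x * b := by group
    exfalso
    have hxb : x ∉ cen b := fun h => heZ (by
      rw [he, mem_cen.1 h, mul_inv_cancel_right, mul_inv_cancel]; exact one_mem _)
    have hv : a' * b ∈ A0 := mul_mem ha'A hbA
    have hxa' : x * a' * x⁻¹ = a' := by rw [← mem_cen.1 ha'x, mul_inv_cancel_right]
    -- a stabiliser fixes the commutator with `x`
    have hstab : ∀ v : G, x * v * x⁻¹ * v⁻¹ = e → (P : Subgroup G) ⊓ cen v ≤ (P : Subgroup G) ⊓ cen e := by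
      intro v hv' g hg
      refine ⟨hg.1, mem_cen.2 ?_⟩
      have hc := hxc g hg.1
      set d := g * x * g⁻¹ * x⁻¹ with hddef
      have hgx : g * x * g⁻¹ = d * x := by rw [hddef]; group
      have hdc : ∀ u : G, u * d = d * u := Subgroup.mem_center_iff.1 hc
      have hgv : g * v * g⁻¹ = v := by rw [mem_cen.1 hg.2, mul_inv_cancel_right]
      have h2 : g * e * g⁻¹ = e := by
        rw [← hv']
        calc g * (x * v * x⁻¹ * v⁻¹) * g⁻¹
            = (g * x * g⁻¹) * (g * v * g⁻¹) * (g * x * g⁻¹)⁻¹ * (g * v * g⁻¹)⁻¹ := by group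
          _ = d * (x * v * x⁻¹) * d⁻¹ * v⁻¹ := by rw [hgx, hgv]; group
          _ = x * v * x⁻¹ * v⁻¹ := by rw [← hdc (x * v * x⁻¹), mul_inv_cancel_right]
      calc g * e = g * e * g⁻¹ * g := by group
        _ = e * g := by rw [h2]
    have hab : x * (a' * b) * x⁻¹ * (a' * b)⁻¹ = e := by
      calc x * (a' * b) * x⁻¹ * (a' * b)⁻¹ = (x * a' * x⁻¹) * (x * b * x⁻¹ * b⁻¹) * a'⁻¹ := by group
        _ = a' * e * a'⁻¹ := by rw [hxa']
        _ = e := by rw [hA0c a' ha'A e heA, mul_inv_cancel_right]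
    by_cases hvZ : a' * b ∈ Subgroup.center G
    · refine hxb ?_
      have h1 : cen b = cen a' := by
        conv_lhs => rw [show b = a' * b * a'⁻¹ from (by rw [hA0c a' ha'A b hbA, mul_inv_cancel_right])]
        rw [cen_central_mul hvZ]
        ext u
        exact ⟨fun h => mem_cen.2 (by simpa using (Commute.inv_right (mem_cen.1 h : Commute u a'⁻¹)).eq),
          fun h => mem_cen.2 (Commute.inv_right (mem_cen.1 h : Commute u a')).eq⟩
      rw [h1]
      exact mem_cen.2 (mem_cen.1 ha'x).symm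
    have e1 := Subgroup.eq_of_le_of_card_ge (hstab b rfl) (by rw [hS b hbA hbZ, hS e heA heZ])
    have e2 := Subgroup.eq_of_le_of_card_ge (hstab (a' * b) hab) (by rw [hS _ hv hvZ, hS e heA heZ])
    have hle : (P : Subgroup G) ⊓ cen b ≤ (P : Subgroup G) ⊓ cen a' := by
      intro g hg
      have h1 : g ∈ (P : Subgroup G) ⊓ cen (a' * b) := by rw [e2, ← e1]; exact hg
      refine ⟨hg.1, mem_cen.2 ?_⟩
      have h2 : Commute g (a' * b) := mem_cen.1 h1.2
      have h3 : Commute g b := mem_cen.1 hg.2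
      simpa [mul_assoc] using (h2.mul_right h3.inv_right).eq
    have e3 := Subgroup.eq_of_le_of_card_ge hle (by rw [hS b hbA hbZ, hS a' ha'A ha'Z])
    exact hxb (e3.ge ⟨hxP, mem_cen.2 (mem_cen.1 ha'x).symm⟩).2

end TwoPrimeGroup

theorem not_plain : False := by
  obtain ⟨t, a, ht, htp, htG, ha, hai⟩ := D.exists_m_elt
  haveI := Fact.mk ht
  by_cases hthird : ∃ u : ℕ, u.Prime ∧ u ∣ Nat.card G ∧ u ≠ p ∧ u ≠ t
  · obtain ⟨u, hu, huG, hup, hut⟩ := hthird
    by_cases hc : ∃ c : G, IsPElt u c ∧ idx c = m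
    · obtain ⟨c, hcu, hci⟩ := hc
      exact D.not_uniq ht htp ha hai (D.uniq_of_third ht htG htp hu hup hut huG hcu hci)
    · exact D.false_of_third hu hup huG fun c hcu hci => hc ⟨c, hcu, hci⟩
  · have hprimes : ∀ r : ℕ, r.Prime → r ∣ Nat.card G → r = p ∨ r = t := by
      intro r hr hrG
      by_contra h
      push Not at h
      exact hthird ⟨r, hr, hrG, h.1, h.2⟩
    have hsol : Group.IsSolvable G := CfsgLib.Chars.Apps.isSolvable_of_primeFactors_subset G D.prime ht hprimes
    obtain ⟨x, hx, hxZ, hall⟩ := D.exists_commute htp hprimes hsol ha hai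
    exact D.not_uniq ht htp ha hai (D.uniq_of_commute htp hprimes hx hxZ hall)

end PlainHyp

end CfsgLib.RankTwoClass
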