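import Cfsg.Agent.RankTwoClass.Basic
import Mathlib

/-!
Without abelian direct factor every prime of the order divides some class size.
-/

set_option autoImplicit false

namespace CfsgLib.RankTwoClass

open CfsgLib.TwoSizes (cen mem_cen center_le_cen)
open CfsgLib.CoprimeLargest (idx)

variable {G : Type*} [Group G] [Finite G]

theorem exists_dvd_idx_of_no_abelian_factor
    (hnodf : ∀ A B : Subgroup G, A.Normal → B.Normal → A ⊓ B = ⊥ → A ⊔ B = ⊤ → IsMulCommutative A → A = ⊥)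
    {q : ℕ} (hq : q.Prime) (hqG : q ∣ Nat.card G) : ∃ g : G, q ∣ idx g := by
  haveI := Fact.mk hq
  by_contra hno
  push Not at hno
  obtain ⟨Q⟩ : Nonempty (Sylow q G) := inferInstance
  have hQc : ∀ g : G, ∀ v ∈ (Q : Subgroup G), g * v = v * g := by
    have h : Subgroup.centralizer ((Q : Subgroup G) : Set G) = ⊤ := by
      refine CfsgLib.ClassSizes.eq_top_of_conj_cover _ fun g => ?_
      obtain ⟨S, hS⟩ := CfsgLib.ClassSizes.exists_sylow_le_of_not_dvd_index _ (hno g)
      obtain ⟨k, hk⟩ := MulAction.exists_smul_eq G S Q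
      refine ⟨k⁻¹, Subgroup.mem_centralizer_iff.2 fun v hv => ?_⟩
      rw [inv_inv]
      rw [← hk, SetLike.mem_coe, Sylow.coe_subgroup_smul, Subgroup.mem_pointwise_smul_iff_inv_smul_mem] at hv
      have h1 : k⁻¹ * v * k ∈ (S : Subgroup G) := by simpa [mul_assoc] using hv
      have h2 := mem_cen.1 (hS h1 : k⁻¹ * v * k ∈ cen g)
      calc v * (k * g * k⁻¹) = k * (k⁻¹ * v * k * g) * k⁻¹ := by group
        _ = k * (g * (k⁻¹ * v * k)) * k⁻¹ := by rw [h2]
        _ = k * g * k⁻¹ * v := by group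
    intro g v hv
    exact (Subgroup.mem_centralizer_iff.1 (h.symm ▸ Subgroup.mem_top g) v hv).symm
  haveI hQn : (Q : Subgroup G).Normal := ⟨fun v hv g => by
    rw [hQc g v hv, mul_inv_cancel_right]; exact hv⟩
  obtain ⟨K, hK⟩ := Subgroup.exists_right_complement'_of_coprime (N := (Q : Subgroup G)) (by
    rw [Q.card_eq_multiplicity]
    exact (hq.coprime_iff_not_dvd.2 Q.not_dvd_index).pow_left _)
  have hKn : K.Normal := ⟨fun k hk g => by
    obtain ⟨⟨⟨v, hv⟩, ⟨w, hw⟩⟩, hvw⟩ := hK.2 g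
    have hvw' : v * w = g := hvw
    rw [← hvw', show v * w * k * (v * w)⁻¹ = v * (w * k * w⁻¹) * v⁻¹ by group,
      ← hQc (w * k * w⁻¹) v hv, mul_inv_cancel_right]
    exact mul_mem (mul_mem hw hk) (inv_mem hw)⟩
  have hbot := hnodf _ K hQn hKn hK.disjoint.eq_bot hK.sup_eq_top
    ⟨⟨fun a b => Subtype.ext (hQc a b b.2)⟩⟩
  exact Q.ne_bot_of_dvd_card hqG hbot

end CfsgLib.RankTwoClass
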